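import Cfsg.Agent.H1.Ic0

/-! A `2`-component of `C_M(a)` lies in an `a`-invariant `2`-component of `M` or centralises it modulo the core. -/

set_option autoImplicit false

namespace Cfsg.Agent.H1.Ic

open Subgroup Cfsg.Agent.FT Cfsg.Agent.GW

variable {G : Type*} [Group G] [Finite G] {J J' K D M Q T : Subgroup G} {a b x y : G}

theorem p1 (hK : PComp 2 K M) (ha : Invo a) (haM : a ∈ M) (hn : a ∈ N(K)) (hD : PComp 2 D (M ⊓ C[a])) :
    D ≤ K ∨ ⁅K, D⁆ ≤ O[{2}ᶜ](K) := by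
  have hO := pcore_nrm {2}ᶜ M
  have hP : ⟪a⟫ ≤ M := zpowers_le.2 haM
  have hDM : D ≤ M := hD.le.trans inf_le_left
  rw [← cen_zpowers] at hD
  have hL : D ≤ L[2](M) := hD.le_play.trans (l_balance ha.pGrp hP)
  have h1 := hD.quo_p' (inf_le_left.trans hO) (pcore_pi {2}ᶜ M)
  rw [coprime_quotient_cent_or (pcore_le _ M) (hP.trans hO) ((pcore_pi {2}ᶜ M).cop' ha.pGrp)
    (Or.inr ha.pGrp.sol)] at h1
  have h2 : D /ₛ O[{2}ᶜ](M) ≤ E(M /ₛ O[{2}ᶜ](M)) := quo_play_core 2 M ▸ quo_mono _ hL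
  have h3 := h1.mono (le_inf h2 (h1.le.trans inf_le_right)) (inf_le_inf_right _ (lay_le _))
  have hA : ⟪a⟫ /ₛ O[{2}ᶜ](M) ≤ N(K /ₛ O[{2}ᶜ](M)) := quo_norms _ (zpowers_le.2 hn)
  rw [← lay_eq_sup_cent hK.quo_comp.subn hK.quo_comp.le_lay] at h3
  rcases h3.le_or_le_of_cp inf_le_right hA
    (norms_subcent (norms_lay (quo_norms _ (hP.trans (le_nrm M)))) hA) with e | e
  · exact Or.inl (hD.pqs.le_of_le_sup ((quo_le_quo (hDM.trans hO) hK.norms_core).1 e)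
      (hK.subn.mono le_sup_right (sup_le (pcore_le _ M) hK.le)) (pcore_pi _ M) hK.norms_core)
  · exact Or.inr (hK.comm_le_core (hDM.trans (le_nrm M))
      ((quo_cents_iff hK.norms_core (hDM.trans hO)).1 (centsC (e.trans inf_le_right))))

end Cfsg.Agent.H1.Ic
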