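import Cfsg.Agent.H1.Ic0

/-! The diagonal `2`-component of `C_M(b)` for an involution `b` moving a `2`-component of `M`. -/

set_option autoImplicit false

namespace Cfsg.Agent.H1.Ic

open Subgroup Cfsg.Agent.FT Cfsg.Agent.GW

variable {G : Type*} [Group G] [Finite G] {J J' K D M Q T : Subgroup G} {a b x y : G}

theorem p3 (hJ : PComp 2 J M) (hb : Invo b) (hbM : b ∈ M) (hn : b ∉ N(J)) :
    ∃ D, PComp 2 D (M ⊓ C[b]) ∧ D ≤ J ⊔ cj b J ∧ ¬ ⁅J, D⁆ ≤ O[{2}ᶜ](J) ∧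
      (∀ x ∈ J, PiElt {2} x → x * (b * x * b⁻¹) = b * x * b⁻¹ * x → x * (b * x * b⁻¹) ∈ D) ∧
      ∀ U ≤ M ⊓ N(J), ⁅D, U⁆ ≤ O[{2}ᶜ](D) → ⁅J, U⁆ ≤ O[{2}ᶜ](J) := by
  have hO := pcore_nrm {2}ᶜ M
  have hV := pcore_pi {2}ᶜ M
  have hJ' := hJ.cj_of_mem hbM
  have hk : ∀ X : Subgroup G, PiGrp {2}ᶜ (X ⊓ pker (qhom O[{2}ᶜ](M))) := fun X => by
    rw [qker]; exact hV.inf_right _
  have hβ : orderOf coset(O[{2}ᶜ](M), b) = 2 := orderOf_pfun_core Nat.prime_two hO (hk M) hb hbM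
  have hc := hJ.quo_comp
  have hd : Diag 2 coset(O[{2}ᶜ](M), b) (J /ₛ O[{2}ᶜ](M)) :=
    hc.diag Nat.prime_two hβ (le_nrm _ (mem_quo_of_mem (hO hbM) hbM)) fun e => hn (cj_eq_self.1
      (hJ'.eq_of_quo hJ hO hV (by rw [quo_cj (hO hbM), cj_of_mem_nrm e])))
  have hW : Subn (J ⊔ cj b J) M := by rw [← orbs_two hb]; exact hJ.subn.orbs (zpowers_le.2 (le_nrm M hbM))
  have hWn : ⟪b⟫ ≤ N(J ⊔ cj b J) := by rw [← orbs_two hb]; exact norms_orbs _ _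
  have e1 : ((J ⊔ cj b J) ⊓ C[b]) /ₛ O[{2}ᶜ](M) =
      orbs ⟪coset(O[{2}ᶜ](M), b)⟫ (J /ₛ O[{2}ᶜ](M)) ⊓ C[coset(O[{2}ᶜ](M), b)] := by
    rw [orbs_two hβ, ← quo_cj (hO hbM), ← quo_sup hJ.norms_core hJ'.norms_core, ← cen_zpowers, ← cen_zpowers,
      ← quo_zpowers (hO hbM)]
    exact coprime_pmap_cent _ (hW.le.trans hO) (zpowers_le.2 (hO hbM)) hWn ((hk _).cop' hb.pGrp)
      (Or.inr hb.pGrp.sol)
  have h1 := (hd.comp hc.qs).pcomp_two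
  rw [← e1] at h1
  obtain ⟨h2, h3⟩ := pcomp_lift (inf_le_left.trans (hW.le.trans hO)) (hk _) h1
  have hDM := h2.le.trans (inf_le_left.trans hW.le)
  refine ⟨_, h2.trans (hW.inf_right _), h2.le.trans inf_le_left, fun e => hd.not_cents hc.qs ?_,
    fun x hx p e => mem_piGen ⟨⟨mul_mem_sup hx (conj_mem_cj.2 hx), mem_cen1.2 ?_⟩, ?_⟩ (p.mul (p.conj b) e),
    fun U hU e => ?_⟩
  · rw [← h3]
    exact (quo_cents_iff hJ.norms_core (hDM.trans hO)).2 (e.trans hJ.core_le)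
  · have := hb.conj_conj x
    calc x * (b * x * b⁻¹) * b = b * (b * x * b⁻¹) * b⁻¹ * (b * x * b⁻¹) * b := by rw [this]
      _ = b * (b * x * b⁻¹ * x) := by group
      _ = _ := by rw [e]
  · have hx' := hJ.norms_core hx
    have hb' := hO hbM
    refine mem_qpre.2 ⟨mul_mem hx' (mul_mem (mul_mem hb' hx') (inv_mem hb')), ?_⟩
    rw [coset_mul hx' (mul_mem (mul_mem hb' hx') (inv_mem hb')), coset_conj hb' hx', ← dfun_two]
    exact hd.dfun_mem (mem_quo_of_mem hx' hx)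
  · have hUM : U ≤ M := hU.trans inf_le_left
    refine hJ.comm_le_core (hUM.trans (le_nrm M)) ((quo_cents_iff hJ.norms_core (hUM.trans hO)).1 (centsC
      (hd.cents hc.qs.perf (quo_norms _ (hU.trans inf_le_right)) (centsC (perf_cents (hd.qs hc.qs).perf ?_)))))
    refine le_trans ?_ (hd.qs hc.qs).core_cents
    rw [← h3, commC, ← quo_comm (hDM.trans hO) (hUM.trans hO)]
    exact (quo_mono _ e).trans (quo_pcore_le _ _ _)

end Cfsg.Agent.H1.Ic
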