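import Mathlib
import Cfsg.Agent.H20.CN1
import Cfsg.Agent.H4.Ito
import Cfsg.Agent.H28.FrobBridge
import Cfsg.Agent.H1.Hall
import Cfsg.Agent.H1.Product

/-! CN-groups: quotients, fixed-point-free actions, normal Sylow subgroups. -/

set_option autoImplicit false

namespace Cfsg.Agent.H20

open Subgroup Cfsg.Agent.H18 Cfsg.Agent.H22
open Cfsg.Agent.H28 (SemiReg)

universe u

section
variable {G : Type*} [Group G] [Finite G]

theorem exists_lift_PE {G' : Type*} [Group G'] (f : G →* G') {q : ℕ} (g : G) (h : PE q (f g)) :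
    ∃ a ∈ zpowers g, PE q a ∧ f a = f g := by
  obtain ⟨a, b, ha, hb, e, hq, hc⟩ := H4.exists_part_decomp q g
  refine ⟨a, ha, hq, ?_⟩
  have h1 : f b = 1 := by
    obtain ⟨n, rfl⟩ := (mem_powers_iff_mem_zpowers.2 hb : b ∈ Submonoid.powers g)
    refine PE.eq_one (p := q) (by simpa using h.pow n) ?_
    exact Nat.Coprime.coprime_dvd_left (orderOf_map_dvd f _) hc
  rw [e, map_mul, h1, mul_one]

omit [Finite G] in
theorem commute_of_mem_zpowers {y g a : G} (h : Commute y g) (ha : a ∈ zpowers g) : Commute y a := by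
  obtain ⟨n, rfl⟩ := ha
  exact h.zpow_right n

theorem exists_lift_commute {p q r : ℕ} (hp : p.Prime) (hq : q.Prime) (hne : q ≠ p)
    (N : Subgroup G) [N.Normal] (hN : IsPGroup p N) {y : G} (hy : PE q y) {a : G ⧸ N}
    (ha : PE r a) (hc : Commute (QuotientGroup.mk' N y) a) :
    ∃ g : G, QuotientGroup.mk' N g = a ∧ PE r g ∧ Commute y g := by
  haveI : Fact p.Prime := ⟨hp⟩
  have h1 := H1.centralizer_map_mk (zpowers y) N
    (card_zpowers_coprime hN (hy.coprime_of_ne hq hp hne)) (Or.inl (H1.isSolvable_zpowers y))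
  have h2 : a ∈ centralizer ((zpowers y).map (QuotientGroup.mk' N) : Set (G ⧸ N)) := by
    rw [MonoidHom.map_zpowers, H1.mem_centralizer_zpowers_iff]
    exact hc
  rw [h1] at h2
  obtain ⟨g, hg, rfl⟩ := h2
  obtain ⟨a', ha', h3, h4⟩ := exists_lift_PE (QuotientGroup.mk' N) g ha
  exact ⟨a', h4, h3, commute_of_mem_zpowers (H1.mem_centralizer_zpowers_iff.1 hg) ha'⟩

theorem cn_quotient_pgrp (hCN : IsCNGroup G) {p : ℕ} (hp : p.Prime) (N : Subgroup G) [N.Normal]
    (hN : IsPGroup p N) : IsCNGroup (G ⧸ N) := by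
  haveI : Fact p.Prime := ⟨hp⟩
  set f := QuotientGroup.mk' N with hf
  have hsurj : Function.Surjective f := QuotientGroup.mk'_surjective N
  have hlift : ∀ (q : ℕ) (a : G ⧸ N), PE q a → ∃ g, f g = a ∧ PE q g := by
    intro q a ha
    obtain ⟨g, rfl⟩ := hsurj a
    obtain ⟨a', -, h3, h4⟩ := exists_lift_PE f g ha
    exact ⟨a', h4, h3⟩
  have hcomap : ∀ Q : Subgroup (G ⧸ N), IsPGroup p Q → IsPGroup p (Q.comap f) := fun Q hQ =>
    hQ.comap_of_ker_isPGroup f (by rwa [hf, QuotientGroup.ker_mk'])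
  refine cn_of_commute fun r hr x hx p' q' hp' hq' hne a b ha hb hpa hqb => ?_
  have hx1 : x ≠ 1 := by
    rintro rfl
    rw [orderOf_one] at hx
    exact hr.one_lt.ne hx
  have hrx := PE.of_orderOf hx
  by_cases e : r = p
  · subst e
    wlog hq : q' ≠ r generalizing a b p' q'
    · exact (this q' p' hq' hp' hne.symm b a hb ha hqb hpa
        (fun e => hne (e.trans (not_not.1 hq).symm))).symm
    obtain ⟨b, rfl, hqb'⟩ := hlift q' b hqb
    obtain ⟨x, rfl, hrx', hbx⟩ := exists_lift_commute hr hq' hq N hN hqb' hrx hb.symm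
    have hx1' : x ≠ 1 := by rintro rfl; exact hx1 (map_one _)
    obtain ⟨a, rfl, hpa'⟩ := hlift p' a hpa
    refine Commute.map ?_ f
    by_cases e' : p' = r
    · subst e'
      have h1 := hcomap (zpowers (f a) ⊔ zpowers (f x)) (pgrp_sup hpa.pgrp hrx.pgrp
        (zpowers_le.2 (C_le_N _ (by rw [C_zpowers]; exact mem_cent_of_commute ha))))
      exact cn_commute_left hCN hr hq' hne h1 (mem_sup_right (mem_zpowers _)) hx1' hqb' hbx.symm
        (mem_sup_left (mem_zpowers _))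
    · obtain ⟨x', ex, hrx'', hax⟩ := exists_lift_commute hr hp' e' N hN hpa' hrx ha.symm
      have hx1'' : x' ≠ 1 := by rintro rfl; exact hx1 (ex.symm.trans (map_one _))
      have h1 := hcomap (zpowers (f x)) hrx.pgrp
      have h2 : Commute x a := cn_commute_left hCN hr hp' (Ne.symm e') h1
        (show f x' ∈ zpowers (f x) from ex ▸ mem_zpowers _) hx1'' hpa' hax.symm (mem_zpowers _)
      exact cn_commute hCN hx1' h2 hbx.symm hp' hq' hne hpa' hqb'
  · obtain ⟨x, rfl, hrx'⟩ := hlift r x hrx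
    obtain ⟨a, rfl, hpa', hxa⟩ := exists_lift_commute hp hr e N hN hrx' hpa ha
    obtain ⟨b, rfl, hqb', hxb⟩ := exists_lift_commute hp hr e N hN hrx' hqb hb
    have hx1' : x ≠ 1 := by rintro rfl; exact hx1 (map_one _)
    exact (cn_commute hCN hx1' hxa hxb hp' hq' hne hpa' hqb').map f

end

theorem cn_quotient_aux (n : ℕ) : ∀ {G : Type u} [Group G] [Finite G], IsCNGroup G →
    ∀ (H : Subgroup G) [H.Normal], Group.IsSolvable H → Nat.card H = n → IsCNGroup (G ⧸ H) := by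
  induction n using Nat.strong_induction_on with
  | _ n ih =>
  intro G _ _ hCN H _ hH hn
  by_cases h0 : H = ⊥
  · subst h0
    exact cn_of_injective hCN (QuotientGroup.quotientBot (G := G)).toMonoidHom
      (QuotientGroup.quotientBot (G := G)).injective
  obtain ⟨M, hM, hMH⟩ := H2.exists_isMinNormal_le H h0
  haveI := hM.1
  haveI : Group.IsSolvable M := H2.isSolvable_of_le hMH
  obtain ⟨p, hp, hMp⟩ := hM.exists_isPGroup
  have h1 := cn_quotient_pgrp hCN hp M hMp
  have hlt : Nat.card (H.map (QuotientGroup.mk' M)) < n := by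
    rw [← hn, ← relIndex_ker, QuotientGroup.ker_mk', ← card_mul_relIndex hMH]
    have h2 : 1 < Nat.card M := (one_lt_card_iff_ne_bot M).2 hM.2.1
    have h3 : 0 < M.relIndex H := Nat.pos_of_ne_zero (index_ne_zero_of_finite (H := M.subgroupOf H))
    nlinarith
  have h2 := ih _ hlt h1 (H.map (QuotientGroup.mk' M)) (H2.isSolvable_map _ H) rfl
  exact cn_of_injective h2 (QuotientGroup.quotientQuotientEquivQuotient M H hMH).symm.toMonoidHom
    (MulEquiv.injective _)

variable {G : Type*} [Group G] [Finite G]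

theorem cn_quotient (hCN : IsCNGroup G) (H : Subgroup G) [H.Normal] (hH : Group.IsSolvable H) :
    IsCNGroup (G ⧸ H) := cn_quotient_aux _ hCN H hH rfl

/-! ### Fixed-point-free action on a `p`-group -/

theorem semiReg_eq_one {p : ℕ} (hp : p.Prime) {P E : Subgroup G} (hP : IsPGroup p P) (h0 : P ≠ ⊥)
    (hN : E ≤ N[P]) (hreg : SemiReg P E) {x : G} (hx : x ∈ E) (hpx : PE p x) : x = 1 := by
  haveI : Fact p.Prime := ⟨hp⟩
  by_contra h1
  obtain ⟨⟨z, hz, hz'⟩, hz1⟩ := (ne_bot_iff_exists_ne_one).1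
    (pgrp_inf_C_ne_bot hpx.pgrp hP (zpowers_le.2 (hN hx)) h0)
  exact hz1 (Subtype.ext (hreg x hx h1 z hz (mem_C.1 hz' x (mem_zpowers x))))

theorem semiReg_coprime {p : ℕ} (hp : p.Prime) {P E : Subgroup G} (hP : IsPGroup p P) (h0 : P ≠ ⊥)
    (hN : E ≤ N[P]) (hreg : SemiReg P E) : (Nat.card E).Coprime p :=
  haveI : Fact p.Prime := ⟨hp⟩
  coprime_card_of_forall fun _ hx h => semiReg_eq_one hp hP h0 hN hreg hx h

/-- A group acting fixed-point-freely contains no Frobenius group. -/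
theorem semiReg_not_semiReg {p : ℕ} (hp : p.Prime) {P E A B : Subgroup G} (hP : IsPGroup p P)
    (h0 : P ≠ ⊥) (hN : E ≤ N[P]) (hreg : SemiReg P E) (hA : A ≤ E) (hB : B ≤ E) (hA0 : A ≠ ⊥)
    (hB0 : B ≠ ⊥) (hBA : B ≤ N[A]) : ¬ SemiReg A B := by
  haveI : Fact p.Prime := ⟨hp⟩
  intro hAB
  haveI : IsMulCommutative ↥(P ⊓ C[P]) := isMulComm_iff.2 (center_le_C P)
  have hV : IsPGroup p ↥(P ⊓ C[P]) := hP.to_le inf_le_left
  obtain ⟨⟨b, hb⟩, hb1⟩ := (ne_bot_iff_exists_ne_one).1 hB0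
  obtain ⟨⟨a, ha⟩, ha1⟩ := (ne_bot_iff_exists_ne_one).1 hA0
  have h1 := H28.le_centralizer_of_abelian (V := P ⊓ C[P]) hBA hAB
    ((sup_le hA hB).trans (le_N_inf hN (le_N_C hN)))
    (pgrp_coprime hV (Nat.Coprime.coprime_dvd_left (card_dvd_of_le hA)
      (semiReg_coprime hp hP h0 hN hreg))).symm
    (by
      rw [eq_bot_iff]
      rintro v ⟨hv, hv'⟩
      exact hreg b (hB hb) (fun e => hb1 (Subtype.ext e)) v hv.1 (hv' b hb))
  obtain ⟨⟨z, hz⟩, hz1⟩ := (ne_bot_iff_exists_ne_one).1 (pgrp_center_ne_bot hP h0)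
  exact hz1 (Subtype.ext (hreg a (hA ha) (fun e => ha1 (Subtype.ext e)) z hz.1
    (mem_C.1 (h1 ha) z hz).symm))

theorem semiReg_exists_commute {p : ℕ} (hp : p.Prime) {P E A : Subgroup G} (hP : IsPGroup p P)
    (h0 : P ≠ ⊥) (hN : E ≤ N[P]) (hreg : SemiReg P E) (hA : A ≤ E) (hA0 : A ≠ ⊥) {b : G}
    (hb : b ∈ E) (hb1 : b ≠ 1) (hbA : b ∈ N[A]) :
    ∃ b' ∈ zpowers b, b' ≠ 1 ∧ ∃ a ∈ A, a ≠ 1 ∧ Commute b' a := by
  have := semiReg_not_semiReg hp hP h0 hN hreg hA (zpowers_le.2 hb) hA0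
    (by rwa [Ne, zpowers_eq_bot]) (zpowers_le.2 hbA)
  unfold SemiReg at this
  push Not at this
  obtain ⟨b', h1, h2, a, h3, h4, h5⟩ := this
  exact ⟨b', h1, h2, a, h3, h5, h4⟩

theorem semiReg_cn_nil (hCN : IsCNGroup G) {p : ℕ} (hp : p.Prime) {P E : Subgroup G}
    (hP : IsPGroup p P) (h0 : P ≠ ⊥) (hN : E ≤ N[P]) (hreg : SemiReg P E) :
    Group.IsNilpotent E := by
  refine H4.isNilpotent_of_forall_hasNPC fun q hq _ => ?_
  rw [H4.hasNPC_iff_forall_isPGroup]
  intro Q hQ hQ0 g hg hc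
  refine mem_of_forall_PE fun r hr n hrn => ?_
  by_cases h1 : g ^ n = 1
  · rw [h1]; exact one_mem _
  have hne : r ≠ q := by
    rintro rfl
    exact h1 (hrn.eq_one (Nat.Coprime.coprime_dvd_left (orderOf_pow_dvd n) hc))
  have hQ' : IsPGroup q (Q.map E.subtype) := hQ.map _
  obtain ⟨b', hb', hb1, a, ha, ha1, hc'⟩ := semiReg_exists_commute hp hP h0 hN hreg
    (A := Q.map E.subtype) (map_subtype_le Q)
    (by rwa [Ne, map_eq_bot_iff_of_injective _ E.subtype_injective]) (b := (g ^ n : E)) (g ^ n).2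
    (fun e => h1 (Subtype.ext e)) (map_N_le E.subtype Q ⟨_, pow_mem hg n, rfl⟩)
  refine mem_C.2 fun y hy => Subtype.ext ?_
  exact (cn_commute_pgrp hCN hr hq.out hne (PE.coe_iff.2 hrn).pgrp hQ' hb' hb1 ha ha1 hc'
    (mem_zpowers _) ⟨y, hy, rfl⟩).symm

/-- Subgroups of prime order of an `r`-group acting fixed-point-freely are unique. -/
theorem semiReg_unique {p : ℕ} (hp : p.Prime) {P R : Subgroup G} (hP : IsPGroup p P) (h0 : P ≠ ⊥)
    (hN : R ≤ N[P]) (hreg : SemiReg P R) {r : ℕ} (hr : r.Prime) (hR : IsPGroup r R)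
    {X Y : Subgroup G} (hX : X ≤ R) (hY : Y ≤ R) (cX : Nat.card X = r) (cY : Nat.card Y = r) :
    X = Y := by
  haveI : Fact p.Prime := ⟨hp⟩
  haveI : Fact r.Prime := ⟨hr⟩
  obtain ⟨z, hz, hz1, hrz, hzc⟩ := nil_exists_center (pgrp_nilp hR) hr (cX ▸ card_dvd_of_le hX)
  obtain ⟨n, hn⟩ := hrz.exists_pow_orderOf hr hz1
  suffices h : ∀ X ≤ R, Nat.card X = r → X = zpowers (z ^ n) by rw [h X hX cX, h Y hY cY]
  intro X hX cX
  haveI : IsCyclic X := isCyclic_of_prime_card cX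
  have hel : IsElementaryAbelian r (X ⊔ zpowers (z ^ n)) := by
    refine elemAb_sup (elemAb_iff.2 ⟨isMulComm_iff.1 inferInstance, fun a ha => ?_⟩)
      (elemAb_iff.2 ⟨isMulComm_iff.1 inferInstance, fun a ha => ?_⟩) ?_
    · rw [← cX]; exact orderOf_dvd_iff_pow_eq_one.1 (orderOf_dvd_card_of_mem ha)
    · rw [← hn, ← Nat.card_zpowers]; exact orderOf_dvd_iff_pow_eq_one.1 (orderOf_dvd_card_of_mem ha)
    · intro x hx
      rw [C_zpowers]
      exact mem_cent_of_commute ((hzc x (hX hx)).pow_left n)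
  have hle : X ⊔ zpowers (z ^ n) ≤ R := sup_le hX (zpowers_le.2 (pow_mem hz n))
  haveI : IsMulCommutative ↥(X ⊔ zpowers (z ^ n)) := isMulComm_iff.2 (elemAb_iff.1 hel).1
  have hcyc : IsCyclic ↥(X ⊔ zpowers (z ^ n)) := by
    by_contra hc
    obtain ⟨a, ha, ha1, h2⟩ := H1.exists_centralizer_ne_bot _ P hc (hle.trans hN)
      (pgrp_coprime hP (Nat.Coprime.coprime_dvd_left (card_dvd_of_le hle)
        (semiReg_coprime hp hP h0 hN hreg))) h0
    exact h2 (H28.semiReg_iff.1 hreg a (hle ha) ha1)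
  obtain ⟨g, hg⟩ := IsCyclic.exists_ofOrder_eq_natCard (α := ↥(X ⊔ zpowers (z ^ n)))
  have hd : Nat.card ↥(X ⊔ zpowers (z ^ n)) ≤ r := by
    rw [← hg, ← orderOf_coe]
    exact Nat.le_of_dvd hr.pos (orderOf_dvd_of_pow_eq_one ((elemAb_iff.1 hel).2 _ g.2))
  have e1 : X = X ⊔ zpowers (z ^ n) := eq_of_le_of_card_ge le_sup_left (cX ▸ hd)
  have e2 : zpowers (z ^ n) = X ⊔ zpowers (z ^ n) :=
    eq_of_le_of_card_ge le_sup_right (by rw [Nat.card_zpowers, hn]; exact hd)
  exact e1.trans e2.symm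

/-! ### The largest normal nilpotent Hall subgroup -/

theorem fittingHall_le_fitting : fittingHall G ≤ fittingSubgroup G :=
  sSup_le fun _ hN => haveI := hN.1; H2.le_fittingSubgroup hN.2.1

theorem fittingHall_nil : Group.IsNilpotent (fittingHall G) :=
  haveI := H2.fittingSubgroup_isNilpotent (G := G)
  H2.isNilpotent_of_le fittingHall_le_fitting

omit [Finite G] in
theorem le_fittingHall {N : Subgroup G} (h1 : N.Normal) (h2 : Group.IsNilpotent N)
    (h3 : (Nat.card N).Coprime N.index) : N ≤ fittingHall G :=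
  le_sSup (s := {N : Subgroup G | N.Normal ∧ Group.IsNilpotent N ∧ (Nat.card N).Coprime N.index})
    ⟨h1, h2, h3⟩

theorem sylow_le_fittingHall {p : ℕ} [Fact p.Prime] (P : Sylow p G) (h : (P : Subgroup G).Normal) :
    (P : Subgroup G) ≤ fittingHall G :=
  le_fittingHall h (pgrp_nilp P.isPGroup') P.card_coprime_index

/-- CN-group with a nontrivial normal Sylow subgroup: elements centralizing a nontrivial element of
the Fitting subgroup lie in `fittingHall`. -/
theorem cn_mem_fittingHall (hCN : IsCNGroup G) {p : ℕ} [hp : Fact p.Prime] (P : Sylow p G)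
    (hP1 : (P : Subgroup G) ≠ ⊥) (hPn : (P : Subgroup G).Normal) {x y : G}
    (hx : x ∈ fittingHall G) (hx1 : x ≠ 1) (hc : Commute x y) : y ∈ fittingHall G := by
  -- `H` is the unique maximal nilpotent subgroup containing `P`
  obtain ⟨H, hH, hPH⟩ := exists_maxNil (fittingHall_nil (G := G))
  have hPF := sylow_le_fittingHall P hPn
  obtain ⟨⟨w, hw⟩, hw1⟩ := (ne_bot_iff_exists_ne_one).1 hP1
  have hw1' : w ≠ 1 := fun e => hw1 (Subtype.ext e)
  have hpw := PE.of_mem P.isPGroup' hw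
  have hall : ∀ g, H22.cj g H = H := by
    intro g
    symm
    refine (hH.cj g).2 H hH.1 (le_of_forall_PE fun r hr y hy hry => ?_)
    by_cases e : r = p
    · subst e
      exact hPH (hPF (syl_le_of_le_N (sylIn_top P) le_top hry.pgrp (le_N_of_normal _ _)
        (mem_zpowers y)))
    · refine hH.mem_of_commute hCN hp.out hr (Ne.symm e) (hPH (hPF hw)) hw1' hpw hry ?_
      refine nil_commute (hH.cj g).1 hp.out hr (Ne.symm e) ?_ hy hpw hry
      exact mem_cj.2 (hPH (hPF (by simpa using hPn.conj_mem w hw g⁻¹)))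
  have hn : H.Normal := normal_of_top_le_N fun g _ => mem_N_iff_cj.2 (hall g)
  have := hH.cent_le hCN (fun g hg => absurd (hall g) hg) (hPH hx) hx1 (mem_cent_of_commute hc)
  exact le_fittingHall hn hH.1 (hH.coprime hCN) this

theorem cn_fittingHall_maxNil (hCN : IsCNGroup G) {p : ℕ} [hp : Fact p.Prime] (P : Sylow p G)
    (hP1 : (P : Subgroup G) ≠ ⊥) (hPn : (P : Subgroup G).Normal) : MaxNil (fittingHall G) := by
  refine ⟨fittingHall_nil, fun L hL hle => le_antisymm ?_ hle⟩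
  have hPF := sylow_le_fittingHall P hPn
  obtain ⟨z, hz, hz1, hpz, hzc⟩ := nil_exists_center hL hp.out
    ((pgrp_dvd_card P.isPGroup' hP1).trans (card_dvd_of_le (hPF.trans hle)))
  have hzP : z ∈ (P : Subgroup G) :=
    syl_le_of_le_N (sylIn_top P) le_top hpz.pgrp (le_N_of_normal _ _) (mem_zpowers z)
  exact fun y hy => cn_mem_fittingHall hCN P hP1 hPn (hPF hzP) hz1 (hzc y hy)

/-- Gorenstein 14.1.4. -/
theorem cn_normal_sylow (hCN : IsCNGroup G) (hnn : ¬ Group.IsNilpotent G) {p : ℕ}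
    [hp : Fact p.Prime] (P : Sylow p G) (hP1 : (P : Subgroup G) ≠ ⊥)
    (hPn : (P : Subgroup G).Normal) :
    fittingHall G ≠ ⊥ ∧ fittingHall G ≠ ⊤ ∧
      ∃ E : Subgroup G, IsComplement' (fittingHall G) E ∧ IsFrobeniusComplement E ∧
        SemiReg (fittingHall G) E ∧ SemiReg P E ∧ Group.IsNilpotent E := by
  have hPF := sylow_le_fittingHall P hPn
  have h1 : fittingHall G ≠ ⊥ := fun e => hP1 (eq_bot_iff.2 (e ▸ hPF))
  have h2 : fittingHall G ≠ ⊤ := fun e => hnn (by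
    have := fittingHall_nil (G := G)
    rw [e] at this
    exact Group.isNilpotent_top.1 this)
  obtain ⟨E, hE⟩ := exists_right_complement'_of_coprime
    ((cn_fittingHall_maxNil hCN P hP1 hPn).coprime hCN)
  have hreg : SemiReg (fittingHall G) E := by
    intro e he he1 x hx hc
    by_contra hx1
    have := cn_mem_fittingHall hCN P hP1 hPn hx hx1 (Eq.symm hc)
    exact he1 (disjoint_def.1 hE.disjoint this he)
  have hE0 : E ≠ ⊥ := by
    rintro rfl
    exact h2 (by simpa using hE.sup_eq_top)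
  have hreg' : SemiReg P E := hreg.mono hPF le_rfl
  exact ⟨h1, h2, E, hE, (H28.isFrobeniusComplement_of_semiReg hreg h1 hE0 hE.sup_eq_top).1, hreg,
    hreg', semiReg_cn_nil hCN hp.out P.isPGroup' hP1 (le_N_of_normal _ _) hreg'⟩

end Cfsg.Agent.H20
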