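import Mathlib
import Cfsg.Agent.H20.CN2
import Cfsg.Agent.H3.OddRank

/-! Solvable CN-groups: three-step groups. -/

set_option autoImplicit false

namespace Cfsg.Agent.H20

open Subgroup Cfsg.Agent.H18 Cfsg.Agent.H22
open Cfsg.Agent.H28 (SemiReg)

universe u

/-- The statement that a `p`-group with a unique subgroup of order `p` is cyclic or quaternion. -/
def RankOneThm : Prop :=
  ∀ (X : Type u) [Group X] [Finite X] (p : ℕ) [Fact p.Prime], IsPGroup p X →
    (∀ H K : Subgroup X, Nat.card H = p → Nat.card K = p → H = K) →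
      IsCyclic X ∨ (p = 2 ∧ ∃ n : ℕ, Nonempty (X ≃* QuaternionGroup (2 ^ n)))

variable {G : Type u} [Group G] [Finite G]

theorem semiReg_cyclic_or (h16 : RankOneThm.{u}) {p : ℕ} (hp : p.Prime) {P R : Subgroup G}
    (hP : IsPGroup p P) (h0 : P ≠ ⊥) (hN : R ≤ N[P]) (hreg : SemiReg P R) {r : ℕ} (hr : r.Prime)
    (hR : IsPGroup r R) :
    IsCyclic R ∨ (r = 2 ∧ ∃ n : ℕ, Nonempty (R ≃* QuaternionGroup (2 ^ n))) := by
  haveI : Fact r.Prime := ⟨hr⟩
  refine h16 R r hR fun X Y hX hY => map_injective R.subtype_injective ?_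
  exact semiReg_unique hp hP h0 hN hreg hr hR (map_subtype_le X) (map_subtype_le Y)
    (by rw [H1.card_map_subtype, hX]) (by rw [H1.card_map_subtype, hY])

theorem semiReg_cyclic_odd {p : ℕ} (hp : p.Prime) {P R : Subgroup G}
    (hP : IsPGroup p P) (h0 : P ≠ ⊥) (hN : R ≤ N[P]) (hreg : SemiReg P R) {r : ℕ} (hr : r.Prime)
    (hR : IsPGroup r R) (h2 : r ≠ 2) : IsCyclic R := by
  haveI : Fact r.Prime := ⟨hr⟩
  by_cases hR0 : R = ⊥
  · rw [hR0]; infer_instance
  obtain ⟨z, hz, ho⟩ := pgrp_exists_orderOf_eq hR hR0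
  refine H3.isCyclic_of_forall_mem h2 hR (H3.isCyclic_zpowers' z) fun x hx hxr => ?_
  by_cases hx1 : x = 1
  · rw [hx1]; exact one_mem _
  rw [← semiReg_unique hp hP h0 hN hreg hr hR (zpowers_le.2 hx) (zpowers_le.2 hz)
    (by rw [Nat.card_zpowers, orderOf_eq_prime hxr hx1]) (by rw [Nat.card_zpowers, ho])]
  exact mem_zpowers x

theorem semiReg_isCyclic {p : ℕ} (hp : p.Prime) {P E : Subgroup G}
    (hP : IsPGroup p P) (h0 : P ≠ ⊥) (hN : E ≤ N[P]) (hreg : SemiReg P E)
    (hE : Group.IsNilpotent E) (ho : Odd (Nat.card E)) : IsCyclic E := by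
  haveI : IsZGroup E := ⟨fun r hr R => by
    haveI : Fact r.Prime := ⟨hr⟩
    by_cases h2 : r = 2
    · subst h2
      have : (R : Subgroup E) = ⊥ := pgrp_eq_bot_of_coprime R.isPGroup'
        (Nat.Coprime.coprime_dvd_left (card_subgroup_dvd_card _) (Nat.coprime_two_right.2 ho))
      rw [this]; infer_instance
    haveI := semiReg_cyclic_odd hp hP h0 ((map_subtype_le (R : Subgroup E)).trans hN)
      (hreg.mono le_rfl (map_subtype_le _)) hr (R.isPGroup'.map _) h2
    exact isCyclic_of_injective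
        ((R : Subgroup E).equivMapOfInjective _ E.subtype_injective).toMonoidHom
        (MulEquiv.injective _)⟩
  infer_instance

theorem cn_fitting_eq (hCN : IsCNGroup G) {p : ℕ} [hp : Fact p.Prime] (hO : pCore p G ≠ ⊥)
    (hn : ¬ SylIn p (pCore p G) ⊤) : fittingSubgroup G = pCore p G := by
  refine le_antisymm ?_ (H2.pCore_le_fittingSubgroup p)
  rw [H2.fittingSubgroup_eq_iSup_pCore]
  refine iSup_le fun ⟨q, hq⟩ => ?_
  by_cases e : q = p
  · subst e; exact le_rfl
  intro w hw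
  by_contra hw'
  have hw1 : w ≠ 1 := by rintro rfl; exact hw' (one_mem _)
  obtain ⟨⟨h, hh⟩, hh1⟩ := (ne_bot_iff_exists_ne_one).1 hO
  have hh1' : h ≠ 1 := fun e => hh1 (Subtype.ext e)
  haveI : Fact q.Prime := ⟨hq⟩
  have hqw : PE q w := PE.of_mem pgrp_pCore hw
  have hc : Commute h w := nil_commute H2.fittingSubgroup_isNilpotent hp.out hq (Ne.symm e)
    (H2.pCore_le_fittingSubgroup p hh) (H2.pCore_le_fittingSubgroup q hw)
    (PE.of_mem pgrp_pCore hh) hqw
  have hall : ∀ R : Subgroup G, SylIn p R ⊤ → R = pCoreOf p (centralizer {w}) := by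
    intro R hR
    refine (hR.max _ le_top (pgrp_pCoreOf _) fun a ha => ?_).symm
    refine nil_PE_mem_pCoreOf (hCN w hw1) (mem_cent_of_commute ?_) (PE.of_mem hR.isP ha)
    exact (cn_commute_left hCN hp.out hq (Ne.symm e) hR.isP
      (syl_le_of_N hR le_top pgrp_pCore (le_N_of_normal _ _) hh) hh1' hqw hc ha).symm
  obtain ⟨R, hR⟩ := exists_sylIn p (⊤ : Subgroup G)
  have hRn : R.Normal := normal_of_top_le_N fun g _ => mem_N_iff_cj.2 (by
    rw [hall _ (sylIn_cj_mem hR (mem_top g)), ← hall R hR])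
  apply hn
  rwa [← hR.max _ le_top pgrp_pCore (le_pCore hRn hR.isP)] at hR

theorem cn_semiReg_pCore (hCN : IsCNGroup G) {p : ℕ} [hp : Fact p.Prime]
    (hC : C[pCore p G] ≤ pCore p G) {E : Subgroup G} (hE : (Nat.card E).Coprime p) :
    SemiReg (pCore p G) E := by
  intro e he he1 x hx hc
  by_contra hx1
  obtain ⟨q, n, hq, h1, h2⟩ := exists_pow_PE_ne_one he1
  have hco : (orderOf (e ^ n)).Coprime p :=
    Nat.Coprime.coprime_dvd_left (orderOf_dvd_card_of_mem (pow_mem he n)) hE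
  have hne : p ≠ q := by rintro rfl; exact h2 (h1.eq_one hco)
  have h3 : e ^ n ∈ pCore p G := hC (mem_C.2 fun a ha =>
    cn_commute_left hCN hp.out hq hne pgrp_pCore hx hx1 h1 (Commute.pow_left hc n).symm ha)
  exact h2 ((PE.of_mem pgrp_pCore h3).eq_one hco)

/-- Lifting a `p'`-subgroup of `G / O_p(G)` to a complement. -/
theorem exists_lift_coprime {p : ℕ} [hp : Fact p.Prime] (N : Subgroup G) [N.Normal]
    (hN : IsPGroup p N) (L : Subgroup (G ⧸ N)) (hL : (Nat.card L).Coprime p) :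
    ∃ E : Subgroup G, (Nat.card E).Coprime p ∧ E.map (QuotientGroup.mk' N) = L ∧
      N ⊔ E = L.comap (QuotientGroup.mk' N) := by
  have hle : N ≤ L.comap (QuotientGroup.mk' N) := QuotientGroup.le_comap_mk' N L
  have hidx : N.relIndex (L.comap (QuotientGroup.mk' N)) = Nat.card L := by
    have := relIndex_ker (K := L.comap (QuotientGroup.mk' N)) (QuotientGroup.mk' N)
    rwa [QuotientGroup.ker_mk', map_comap_eq_self_of_surjective
      (QuotientGroup.mk'_surjective N)] at this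
  obtain ⟨E, h1, h2, h3, h4, -⟩ := H1.exists_complement_in N _ hle (le_N_of_normal _ _)
    (hidx ▸ (pgrp_coprime hN hL).symm)
  refine ⟨E, by rw [h4, hidx]; exact hL, ?_, h3⟩
  have := congrArg (Subgroup.map (QuotientGroup.mk' N)) h3
  rwa [Subgroup.map_sup, QuotientGroup.map_mk'_self, bot_sup_eq, map_comap_eq_self_of_surjective
      (QuotientGroup.mk'_surjective N)] at this

/-- A solvable CN-group with `O_p(G) ≠ 1` is `p`-closed or a three-step group. -/
theorem cn_threeStep (hCN : IsCNGroup G) [Group.IsSolvable G] {p : ℕ}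
    [hp : Fact p.Prime] (hO : pCore p G ≠ ⊥) (hn : ¬ SylIn p (pCore p G) ⊤) :
    IsThreeStepGroup p G := by
  have hC : C[pCore p G] ≤ pCore p G := by
    have := H2.centralizer_fittingSubgroup_le (G := G)
    rwa [cn_fitting_eq hCN hO hn] at this
  set H := pCore p G with hH
  set f := QuotientGroup.mk' H with hf
  set B := pPrimeCore p (G ⧸ H) with hB
  have hBc : (Nat.card B).Coprime p := H2.pPrimeCore_coprime
  haveI hBn : B.Normal := haveI := H2.pPrimeCore_characteristic (G := G ⧸ H) (p := p); inferInstance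
  have hCNq : IsCNGroup (G ⧸ H) := cn_quotient_pgrp hCN hp.out H pgrp_pCore
  have hnil : ∀ E : Subgroup G, (Nat.card E).Coprime p → Group.IsNilpotent E := fun E hE =>
    semiReg_cn_nil hCN hp.out pgrp_pCore hO (le_N_of_normal _ _) (cn_semiReg_pCore hCN hC hE)
  obtain ⟨A, hAc, hAB, hHA⟩ := exists_lift_coprime H pgrp_pCore B hBc
  have hAreg := cn_semiReg_pCore hCN hC hAc
  have hAnil := hnil A hAc
  have hBnil : Group.IsNilpotent B := hAB ▸ H2.isNilpotent_map f A
  have hCB : C[B] ≤ B := by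
    have h1 := H2.centralizer_fittingSubgroup_le (G := G ⧸ H)
    have h2 : fittingSubgroup (G ⧸ H) = B := by
      refine le_antisymm ?_ (H2.le_fittingSubgroup hBnil)
      have := H2.fittingSubgroup_le_pCore_sup_pPrimeCore (G := G ⧸ H) p
      rwa [pCore_quotient_pCore, bot_sup_eq] at this
    rwa [h2] at h1
  have hBord : ∀ b ∈ B, (orderOf b).Coprime p := fun b hb =>
    Nat.Coprime.coprime_dvd_left (orderOf_dvd_card_of_mem hb) hBc
  -- `p`-elements act fixed-point-freely on `B`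
  have hfpf : ∀ x : G ⧸ H, PE p x → ∀ b ∈ B, b ≠ 1 → Commute x b → x = 1 := by
    intro x hx b hb hb1 hc
    by_contra hx1
    obtain ⟨q, n, hq, h1, h2⟩ := exists_pow_PE_ne_one hb1
    have hne : q ≠ p := by rintro rfl; exact h2 (h1.eq_one (hBord _ (pow_mem hb n)))
    obtain ⟨z, hz, hz1, hqz, hzc⟩ := nil_exists_center hBnil hq (h1.dvd_card hq h2 (pow_mem hb n))
    have h3 : Commute z x := cn_commute_left hCNq hq hp.out hne (pgrp_pCoreOf B)
      (nil_PE_mem_pCoreOf hBnil (pow_mem hb n) h1) h2 hx (hc.pow_right n).symm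
      (nil_PE_mem_pCoreOf hBnil hz hqz)
    have h4 : x ∈ B := hCB (mem_C.2 fun a ha => (nil_commute_coprime (hCNq z hz1) hp.out
      (mem_cent_of_commute h3) (mem_cent_of_commute (hzc a ha)) hx (hBord a ha)).symm)
    exact hx1 (hx.eq_one (hBord x h4))
  obtain ⟨x, hx, hx1⟩ : ∃ x : G ⧸ H, PE p x ∧ x ≠ 1 := by
    by_contra hc
    push Not at hc
    refine hn ⟨le_top, pgrp_pCore, fun T _ hT hle => le_antisymm (fun t ht => ?_) hle⟩
    exact (QuotientGroup.eq_one_iff t).1 (hc _ ((PE.of_mem hT ht).map f))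
  have hxB : x ∉ B := fun h => hx1 (hx.eq_one (hBord x h))
  have hA0 : A ≠ ⊥ := by
    rintro rfl
    rw [Subgroup.map_bot] at hAB
    exact hxB (hCB (mem_C.2 fun b hb => by rw [← hAB, mem_bot] at hb; simp [hb]))
  have hfA : ∀ a ∈ A, f a = 1 → a = 1 := fun a ha e =>
    (PE.of_mem pgrp_pCore ((QuotientGroup.eq_one_iff a).1 e)).eq_one
      (Nat.Coprime.coprime_dvd_left (orderOf_dvd_card_of_mem ha) hAc)
  have hAo : Odd (Nat.card A) := by
    by_contra ho
    haveI : Fact (Nat.Prime 2) := ⟨Nat.prime_two⟩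
    obtain ⟨t, ht, hto⟩ := exists_mem_orderOf_eq (p := 2) (Nat.not_odd_iff_even.1 ho).two_dvd
    have ht1 : t ≠ 1 := by rintro rfl; simp at hto
    obtain ⟨t', ht', e⟩ : x * f t * x⁻¹ ∈ A.map f := by
      rw [hAB]; exact hBn.conj_mem _ (hAB ▸ ⟨t, ht, rfl⟩) x
    have ht2 : t ^ 2 = 1 := hto ▸ pow_orderOf_eq_one t
    have hto' : orderOf t' = 2 := by
      apply orderOf_eq_prime
      · apply hfA _ (pow_mem ht' 2)
        rw [map_pow, e, conj_pow, ← map_pow, ht2]; simp
      · rintro rfl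
        rw [map_one, eq_comm, conj_eq_one_iff] at e
        exact ht1 (hfA t ht e)
    have hu := semiReg_unique hp.out pgrp_pCore hO (le_N_of_normal (pCoreOf 2 A) H)
      (hAreg.mono le_rfl (pCoreOf_le A)) Nat.prime_two (pgrp_pCoreOf A)
      (zpowers_le.2 (nil_PE_mem_pCoreOf hAnil ht (PE.of_orderOf hto)))
      (zpowers_le.2 (nil_PE_mem_pCoreOf hAnil ht' (PE.of_orderOf hto')))
      (by rw [Nat.card_zpowers, hto]) (by rw [Nat.card_zpowers, hto'])
    have htt : t' = t := by
      classical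
      have h1 : t' ∈ zpowers t := hu ▸ mem_zpowers t'
      rw [mem_zpowers_iff_mem_range_orderOf, hto] at h1
      simp only [Finset.mem_image, Finset.mem_range] at h1
      obtain ⟨k, hk, rfl⟩ := h1
      interval_cases k
      · simp at hto'
      · simp
    rw [htt] at e
    exact hx1 (hfpf x hx (f t) (hAB ▸ ⟨t, ht, rfl⟩) (fun e => ht1 (hfA t ht e))
      (mul_inv_eq_iff_eq_mul.1 e.symm))
  have hAcyc := semiReg_isCyclic hp.out pgrp_pCore hO (le_N_of_normal _ _) hAreg hAnil hAo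
  -- `p'`-elements of the quotient lie in `B`
  have hPE : ∀ r : ℕ, r.Prime → r ≠ p → ∀ y : G ⧸ H, PE r y → y ∈ B := by
    intro r hr hne y hy
    have hc : (Nat.card ↥(zpowers y ⊔ B)).Coprime p := by
      refine Nat.Coprime.coprime_dvd_left (Dvd.intro _ (card_sup_mul_of_le_N
        (le_N_of_normal (zpowers y) B))) (Nat.Coprime.mul_left ?_ hBc)
      rw [Nat.card_zpowers]; exact hy.coprime_of_ne hr hp.out hne
    obtain ⟨E, hEc, hEL, -⟩ := exists_lift_coprime H pgrp_pCore _ hc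
    have hEnil := hnil E hEc
    refine hCB (mem_C.2 fun b hb => ?_)
    refine (le_of_forall_PE (H := B) (K := centralizer {y}) (fun s hs b hb hsb => ?_) hb :
      b ∈ centralizer {y}) |> mem_centralizer_singleton_iff.1
    by_cases hb1 : b = 1
    · rw [hb1]; exact one_mem _
    obtain ⟨y', hy', rfl⟩ : y ∈ E.map f := hEL ▸ mem_sup_left (mem_zpowers y)
    obtain ⟨b', hb', rfl⟩ : b ∈ E.map f := hEL ▸ mem_sup_right hb
    obtain ⟨y'', hy'', hry, ey⟩ := exists_lift_PE f y' hy
    obtain ⟨b'', hb'', hsb', eb⟩ := exists_lift_PE f b' hsb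
    have m1 := zpowers_le.2 hy' hy''
    have m2 := zpowers_le.2 hb' hb''
    rw [← ey, ← eb]
    refine mem_cent_of_commute (Commute.map ?_ f)
    by_cases e : r = s
    · subst e
      have hodd : r ≠ 2 := by
        rintro rfl
        have h1 := hsb.dvd_card Nat.prime_two hb1 hb
        rw [← hAB] at h1
        exact (Nat.not_even_iff_odd.2 hAo) (even_iff_two_dvd.2 (h1.trans (card_map_dvd A f)))
      haveI := semiReg_cyclic_odd hp.out pgrp_pCore hO (le_N_of_normal (pCoreOf r E) H)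
        ((cn_semiReg_pCore hCN hC hEc).mono le_rfl (pCoreOf_le E)) hr (pgrp_pCoreOf E) hodd
      exact mem_C.1 (isMulComm_iff.1 inferInstance (nil_PE_mem_pCoreOf hEnil m2 hsb')) _
          (nil_PE_mem_pCoreOf hEnil m1 hry)
    · exact nil_commute hEnil hr hs e m1 m2 hry hsb'
  have hcop : ∀ y : G ⧸ H, (orderOf y).Coprime p → y ∈ B := by
    intro y hy
    refine mem_of_forall_PE fun r hr n hrn => ?_
    by_cases e : r = p
    · subst e
      rw [hrn.eq_one (Nat.Coprime.coprime_dvd_left (orderOf_pow_dvd n) hy)]; exact one_mem _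
    · exact hPE r hr e _ hrn
  haveI hKn : (H ⊔ A).Normal := by rw [hHA]; infer_instance
  refine ⟨hO, A, hA0, hAcyc, hAo, hAc, hKn, ?_, ?_, H28.semiReg_iff.1 hAreg, ?_⟩
  · intro e
    obtain ⟨x', rfl⟩ := QuotientGroup.mk'_surjective H x
    have : x' ∈ H ⊔ A := e ▸ mem_top x'
    rw [hHA] at this
    exact hxB this
  · refine IsPGroup.iff_card.1 (show IsPGroup p (G ⧸ (H ⊔ A)) from fun g => ?_)
    obtain ⟨g, rfl⟩ := QuotientGroup.mk_surjective g
    obtain ⟨k, hk⟩ := exists_pow_coprime (p := p) (isOfFinOrder_of_finite (f g))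
    refine ⟨k, ?_⟩
    rw [← QuotientGroup.mk_pow, QuotientGroup.eq_one_iff, hHA, mem_comap, map_pow]
    exact hcop _ hk
  · intro g hg a ha ha1 hc
    apply hg
    rw [hHA, mem_comap]
    have h1 : Commute (f g) (f a) := by
      have := (QuotientGroup.eq_one_iff _).2 hc
      rw [← commutatorElement_eq_one_iff_commute, ← map_commutatorElement]
      exact this
    obtain ⟨u, v, hu, hv, e, hpu, hcv⟩ := H4.exists_part_decomp p (f g)
    rw [e, hfpf u hpu (f a) (hAB ▸ ⟨a, ha, rfl⟩) (fun e => ha1 (hfA a ha e))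
      (commute_of_mem_zpowers h1.symm hu).symm, one_mul]
    exact hcop v hcv

/-- Gorenstein 14.1.5. -/
theorem cn_trichotomy (h16 : RankOneThm.{u}) [Group.IsSolvable G] (hCN : IsCNGroup G) :
    Group.IsNilpotent G ∨
      (∃ K E : Subgroup G, K.Normal ∧ IsComplement' K E ∧ IsFrobeniusComplement E ∧
        (IsCyclic E ∨ ∃ C Q : Subgroup G, C ⊔ Q = E ∧ (∀ a ∈ C, ∀ b ∈ Q, a * b = b * a) ∧
          IsCyclic C ∧ Odd (Nat.card C) ∧ ∃ n : ℕ, Nonempty (↥Q ≃* QuaternionGroup (2 ^ n)))) ∨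
      ∃ p : ℕ, p.Prime ∧ IsThreeStepGroup p G := by
  by_cases hnn : Group.IsNilpotent G
  · exact Or.inl hnn
  right
  haveI : Nontrivial G := by
    by_contra hn
    rw [not_nontrivial_iff_subsingleton] at hn
    exact hnn inferInstance
  obtain ⟨p, hp, hO⟩ := H2.exists_pCore_ne_bot (G := G)
  haveI : Fact p.Prime := ⟨hp⟩
  by_cases hs : SylIn p (pCore p G) ⊤
  swap
  · exact Or.inr ⟨p, hp, cn_threeStep hCN hO hs⟩
  left
  obtain ⟨P, hP⟩ := hs.exists_sylow_top
  obtain ⟨-, -, E, hE, hF, -, hreg, hEn⟩ := cn_normal_sylow hCN hnn P (hP ▸ hO)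
    (hP ▸ inferInstance)
  rw [hP] at hreg
  refine ⟨_, E, inferInstance, hE, hF, ?_⟩
  haveI : Fact (Nat.Prime 2) := ⟨Nat.prime_two⟩
  set C := (pPrimeCore 2 E).map E.subtype with hC
  have hCE : C ≤ E := map_subtype_le _
  have hCo : Odd (Nat.card C) := Nat.coprime_two_right.1 (H2.pPrimeCore_map_subtype_mem E)
  have hCc := semiReg_isCyclic hp pgrp_pCore hO (le_N_of_normal _ _) (hreg.mono le_rfl hCE)
    (H2.isNilpotent_of_le hCE) hCo
  have hsup : C ⊔ pCoreOf 2 E = E := by
    have := congrArg (Subgroup.map E.subtype) (H2.pCore_sup_pPrimeCore_of_isNilpotent (G := E) 2)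
    rwa [Subgroup.map_sup, map_subtype_top, sup_comm] at this
  have hcomm : ∀ a ∈ C, ∀ b ∈ pCoreOf 2 E, a * b = b * a := fun a ha b hb =>
    (nil_commute_coprime hEn Nat.prime_two (pCoreOf_le E hb) (hCE ha)
      (PE.of_mem (pgrp_pCoreOf E) hb) (Nat.Coprime.coprime_dvd_left (orderOf_dvd_card_of_mem ha)
        (Nat.coprime_two_right.2 hCo))).symm
  rcases semiReg_cyclic_or h16 hp pgrp_pCore hO (le_N_of_normal (pCoreOf 2 E) _)
    (hreg.mono le_rfl (pCoreOf_le E)) Nat.prime_two (pgrp_pCoreOf E) with h | h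
  · left
    haveI : IsZGroup E := ⟨fun r hr R => by
      haveI : Fact r.Prime := ⟨hr⟩
      have h1 : IsCyclic ((R : Subgroup E).map E.subtype) := by
        by_cases h2 : r = 2
        · subst h2
          exact isCyclic_of_le (H' := pCoreOf 2 E) fun a ha =>
            nil_PE_mem_pCoreOf hEn (map_subtype_le _ ha) (PE.of_mem (R.isPGroup'.map _) ha)
        · exact (semiReg_cyclic_or h16 hp pgrp_pCore hO (le_N_of_normal _ _)
            (hreg.mono le_rfl (map_subtype_le _)) hr (R.isPGroup'.map _)).resolve_right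
            fun h => h2 h.1
      exact isCyclic_of_injective
        ((R : Subgroup E).equivMapOfInjective _ E.subtype_injective).toMonoidHom
        (MulEquiv.injective _)⟩
    infer_instance
  · exact Or.inr ⟨C, pCoreOf 2 E, hsup, hcomm, hCc, hCo, h.2⟩

end Cfsg.Agent.H20
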