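import Mathlib
import Cfsg.Prelude.Def_OddOrder
import Cfsg.Agent.H20.CN3
import Cfsg.Agent.H5.Puig
import Cfsg.Agent.H4.Control
import Cfsg.Agent.H6.Frobenius

/-! Minimal simple CN-groups of odd order. -/

set_option autoImplicit false

namespace Cfsg.Agent.H20

open Subgroup Cfsg.Agent.H18 Cfsg.Agent.H22
open Cfsg.Agent.H28 (SemiReg)

universe u

section
variable {G : Type*} [Group G] [Finite G] {p : ℕ} [hp : Fact p.Prime]

/-- If a conjugation-equivariant functor `W` is normal in every `p`-local subgroup, then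
`N(W(P))` contains the normalizers of all its nontrivial `p`-subgroups. -/
theorem N_le_of_functor (W : Subgroup G → Subgroup G) (hcj : ∀ g S, cj g (W S) = W (cj g S))
    (hle : ∀ S, W S ≤ S) (hne : ∀ S : Subgroup G, IsPGroup p S → S ≠ ⊥ → W S ≠ ⊥)
    (hloc : ∀ T : Subgroup G, IsPGroup p T → T ≠ ⊥ → ∀ S, SylIn p S N[T] → N[T] ≤ N[W S])
    {P : Subgroup G} (hP : SylIn p P ⊤) {T : Subgroup G} (hT : IsPGroup p T) (h0 : T ≠ ⊥)
    (hTM : T ≤ N[W P]) : N[T] ≤ N[W P] := by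
  have hNW : ∀ S, N[S] ≤ N[W S] := fun S g hg => mem_N_iff_cj.2 (by rw [hcj, cj_eq_of_mem_N hg])
  obtain ⟨S, hS⟩ := exists_sylIn p (N[T] ⊓ N[W P])
  induction S using subgroup_gt_induction generalizing T with
  | _ S ih =>
  have hTS : T ≤ S := syl_le_of_N hS (le_inf le_normalizer hTM) hT (hS.le.trans inf_le_left)
  have hS0 : S ≠ ⊥ := fun e => h0 (eq_bot_iff.2 (e ▸ hTS))
  have hSM : S ≤ N[W P] := hS.le.trans inf_le_right
  obtain ⟨R, hR, hSR⟩ := exists_sylIn_ge hS.isP hSM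
  have hPM : SylIn p P N[W P] := hP.mono (le_normalizer.trans (hNW P)) le_top
  rcases hSR.eq_or_lt with e | hlt
  · subst e
    obtain ⟨m, hm, e⟩ := syl_exists_cj_eq hPM hR
    have h1 : W S = W P := by rw [← e, ← hcj, cj_eq_of_mem_N hm]
    have h2 : SylIn p S ⊤ := e ▸ sylIn_cj_mem hP (mem_top m)
    exact h1 ▸ hloc T hT h0 S (h2.mono (hS.le.trans inf_le_left) le_top)
  · have h1 : ∀ U : Subgroup G, U ≤ S → U ≠ ⊥ → N[S] ≤ N[U] → N[U] ≤ N[W P] := by
      intro U hU hU0 hN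
      obtain ⟨S', hS', hle'⟩ := exists_sylIn_ge (hR.isP.to_le (inf_le_left : R ⊓ N[S] ≤ R))
        (le_inf (inf_le_right.trans hN) (inf_le_left.trans hR.le))
      exact ih S' ((pgrp_lt_inf_N hR.isP hlt).trans_le hle') (hS.isP.to_le hU) hU0
        (hU.trans hSM) hS'
    have h2 : SylIn p S N[T] := sylIn_of_inf_N (hS.le.trans inf_le_left)
      (hS.mono (le_inf (hS.le.trans inf_le_left) le_normalizer)
        (inf_le_inf_left _ (h1 S le_rfl hS0 le_rfl)))
    exact (hloc T hT h0 S h2).trans (h1 _ (hle S) (hne S hS.isP hS0) (hNW S))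

theorem mem_of_N_le {M : Subgroup G}
    (h : ∀ T : Subgroup G, IsPGroup p T → T ≠ ⊥ → T ≤ M → N[T] ≤ M) {x g : G} (hx : x ∈ M)
    (hpx : PE p x) (h1 : x ≠ 1) (hg : g * x * g⁻¹ ∈ M) : g ∈ M := by
  obtain ⟨T, hT, hle⟩ := exists_sylIn_ge hpx.pgrp
    (zpowers_le.2 (mem_inf.2 ⟨hx, mem_cj.2 (by simpa using hg)⟩ : x ∈ M ⊓ cj g⁻¹ M))
  have h0 : T ≠ ⊥ := fun e => h1 (by simpa [e] using hle (mem_zpowers x))
  have hTg : cj g T ≤ M := cj_le_iff.2 (hT.le.trans inf_le_right)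
  have h2 := h T hT.isP h0 (hT.le.trans inf_le_left)
  have h3 := h (cj g T) (isPGroup_cj g hT.isP) (by simpa using h0) hTg
  rw [← cj_N, cj_le_iff] at h3
  have h4 : SylIn p T ⊤ := sylIn_of_inf_N le_top
    (hT.mono (le_inf le_top le_normalizer) (inf_le_right.trans (le_inf h2 h3)))
  obtain ⟨m, hm, e⟩ := syl_exists_cj_eq ((sylIn_cj_mem h4 (mem_top g)).mono hTg le_top)
    (h4.mono (hT.le.trans inf_le_left) le_top)
  rw [← cj_mul] at e
  exact (M.mul_mem_cancel_left hm).1 (h2 (mem_N_iff_cj.2 e))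

omit [Finite G] hp in
theorem threeStep_isPGroup (h : IsThreeStepGroup p G) :
    ∃ (K : Subgroup G) (_ : K.Normal), K ≠ ⊤ ∧ pCore p G ≤ K ∧ IsPGroup p (G ⧸ K) := by
  obtain ⟨-, A, -, -, -, -, hn, hne, ⟨n, hi⟩, -⟩ := h
  exact ⟨_, hn, hne, le_sup_left, IsPGroup.of_card hi⟩

theorem threeStep_not_sylIn (h : IsThreeStepGroup p G) : ¬ SylIn p (pCore p G) ⊤ := by
  obtain ⟨K, _, h1, h2, h3⟩ := threeStep_isPGroup h
  intro hs
  obtain ⟨P, hP⟩ := hs.exists_sylow_top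
  have := H4.sup_eq_top_of_isPGroup_quotient K h3 (H4.sylow_index_coprime P)
  rw [hP, sup_eq_left.2 h2] at this
  exact h1 this

omit [Finite G] hp in
theorem threeStep_pResidual (h : IsThreeStepGroup p G) : pResidual p G ≠ ⊤ := by
  obtain ⟨K, _, h1, -, h3⟩ := threeStep_isPGroup h
  exact fun e => h1 (top_le_iff.1 (e ▸ H4.pResidual_le_of_isPGroup_quotient K h3))

theorem sylIn_pCoreOf_iff {L : Subgroup G} :
    SylIn p (pCoreOf p L) L ↔ SylIn p (pCore p L) ⊤ := by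
  constructor
  · intro h
    refine SylIn.of_map_injective L.subtype L.subtype_injective ?_
    rwa [map_subtype_top]
  · intro h
    have := h.map L.subtype
    rwa [map_subtype_top] at this

end

variable {G : Type u} [Group G] [Finite G]

omit [Finite G] in
theorem ms_not_solvable (hG : IsMinSimpleOddOrder G) : ¬ Group.IsSolvable G := by
  intro h
  haveI := hG.2.1
  exact hG.2.2.1 ⟨⟨IsSimpleGroup.comm_iff_isSolvable.2 h⟩⟩

omit [Finite G] in
theorem ms_ne_top (hG : IsMinSimpleOddOrder G) {H : Subgroup G} (h : Group.IsSolvable H) :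
    H ≠ ⊤ := by
  rintro rfl
  exact ms_not_solvable hG (H2.isSolvable_of_equiv topEquiv)

omit [Finite G] in
theorem ms_N_ne_top (hG : IsMinSimpleOddOrder G) {H : Subgroup G} (h : Group.IsSolvable H)
    (h0 : H ≠ ⊥) : N[H] ≠ ⊤ := by
  intro e
  haveI := hG.2.1
  rcases (normal_of_top_le_N e.ge).eq_bot_or_eq_top with h1 | h1
  · exact h0 h1
  · exact ms_ne_top hG h h1

theorem ms_puig (hG : IsMinSimpleOddOrder G) (hCN : IsCNGroup G) {p : ℕ} [hp : Fact p.Prime]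
    {L S : Subgroup G} (hL : L ≠ ⊤) (h0 : pCoreOf p L ≠ ⊥) (hS : SylIn p S L) :
    L ≤ N[H5b.pUp S ⊓ C[H5b.pUp S]] := by
  by_cases hs : SylIn p (pCore p L) ⊤
  · have := (sylIn_pCoreOf_iff.2 hs).max S hS.le hS.isP (pCoreOf_le_syl hS)
    rw [this]
    exact (le_N_pCoreOf L).trans ((H5b.N_le_N_pUp _).trans (H5b.N_le_N_center _))
  haveI := hG.2.2.2 L hL
  have hC : C[pCore p L] ≤ pCore p L := by
    have := H2.centralizer_fittingSubgroup_le (G := L)
    rwa [cn_fitting_eq (cn_subgroup hCN L) (fun e => h0 (pCoreOf_eq_bot_iff.2 e)) hs] at this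
  have hQF : H5b.QF p L := H5b.QF.of_top (H5b.qf_subgroup_of_odd
    (Odd.of_dvd_nat hG.1 (card_subgroup_dvd_card L)) ⊤)
  obtain ⟨T, hT⟩ := hS.exists_sylow
  haveI := H5b.center_pUp_normal hC (fun P _ hP => hQF.isPStableOn P hP) T
  have := le_N_map_subtype (H5b.pUp (T : Subgroup L) ⊓ C[H5b.pUp (T : Subgroup L)])
  rwa [map_inf_C_inj L.subtype_injective, H5b.map_pUp L.subtype_injective, hT,
    subgroupOf_map_subtype, inf_eq_left.2 hS.le] at this

theorem ms_pResidual (hG : IsMinSimpleOddOrder G) (p : ℕ) [hp : Fact p.Prime] :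
    pResidual p G = ⊤ := by
  haveI := hG.2.1
  refine ((H4.pResidual_normal p).eq_bot_or_eq_top).resolve_left fun e => ?_
  exact ms_not_solvable hG (H1.isSolvable_of_isPGroup (H4.pResidual_eq_bot_iff.1 e))

theorem ms_not_threeStep_prime (hG : IsMinSimpleOddOrder G)
    (hCN : IsCNGroup G) {p : ℕ} [hp : Fact p.Prime] (H : Subgroup G) :
    ¬ IsThreeStepGroup p H := by
  intro h3
  have hH0 : pCoreOf p H ≠ ⊥ := fun e => h3.1 (pCoreOf_eq_bot_iff.1 e)
  obtain ⟨P, hP, hle⟩ := exists_sylIn_ge (pgrp_pCoreOf (p := p) H) le_top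
  have hP0 : P ≠ ⊥ := fun e => hH0 (eq_bot_iff.2 (e ▸ hle))
  set W : Subgroup G → Subgroup G := fun S => H5b.pUp S ⊓ C[H5b.pUp S] with hW
  have hWle : ∀ S, W S ≤ S := fun S => inf_le_left.trans (H5b.pUp_le S)
  have hWne : ∀ S : Subgroup G, IsPGroup p S → S ≠ ⊥ → W S ≠ ⊥ := fun S hS h0 e =>
    pgrp_center_ne_bot hS h0 (eq_bot_iff.2 ((H5b.center_le_center_pUp S).trans e.le))
  have hN : ∀ T : Subgroup G, IsPGroup p T → T ≠ ⊥ → T ≤ N[W P] → N[T] ≤ N[W P] := by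
    intro T hT h0 hTM
    refine N_le_of_functor W (fun g S => ?_) hWle hWne (fun T hT h0 S hS => ?_) hP hT h0 hTM
    · simp only [hW, cj_inf, cj_C, H5b.cj_pUp]
    · refine ms_puig hG hCN (ms_N_ne_top hG (pgrp_solvable hT) h0) (fun e => h0 ?_) hS
      exact eq_bot_iff.2 (e ▸ le_pCoreOf le_normalizer le_rfl hT)
  set M := N[W P] with hM
  have hPM : P ≤ M := le_normalizer.trans ((H5b.N_le_N_pUp _).trans (H5b.N_le_N_center _))
  have hWp : IsPGroup p (W P) := hP.isP.to_le (hWle P)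
  haveI := hG.2.2.2 M (ms_N_ne_top hG (pgrp_solvable hWp) (hWne P hP.isP hP0))
  have hHM : H ≤ M := (le_N_pCoreOf H).trans (hN _ (pgrp_pCoreOf H) hH0 (hle.trans hPM))
  have hM3 : IsThreeStepGroup p M := by
    refine cn_threeStep (cn_subgroup hCN M) (fun e => hWne P hP.isP hP0 ?_) fun hs => ?_
    · exact eq_bot_iff.2 (pCoreOf_eq_bot_iff.2 e ▸ le_pCoreOf le_normalizer le_rfl hWp)
    · refine threeStep_not_sylIn h3 (sylIn_pCoreOf_iff.1 ⟨pCoreOf_le H, pgrp_pCoreOf H,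
        fun T hTH hT hle' => le_antisymm ?_ hle'⟩)
      refine le_trans (le_inf hTH ?_) (inf_pCoreOf_le (hHM.trans le_normalizer))
      exact syl_le_of_le_N (sylIn_pCoreOf_iff.2 hs) (hTH.trans hHM) hT
        (hTH.trans (hHM.trans (le_N_pCoreOf M)))
  obtain ⟨S, rfl⟩ := hP.exists_sylow_top
  have h1 := H4.inf_pResidual_eq_of_controls S hPM (fun x hx _ g _ hg => by
    by_cases hx1 : x = 1
    · exact ⟨1, one_mem _, by simp [hx1]⟩
    · exact ⟨g, mem_of_N_le hN (hPM hx) (PE.of_mem hP.isP hx) hx1 (hPM hg), rfl⟩)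
  rw [ms_pResidual hG p, inf_top_eq, left_eq_inf] at h1
  have h2 := pResidualOf_sup_syl (hP.mono hPM le_top)
  rw [sup_eq_left.2 (show (S : Subgroup G) ≤ pResidualOf p M from h1)] at h2
  apply threeStep_pResidual hM3
  rw [← pResidualOf_subgroupOf, h2, subgroupOf_self]

theorem cn_not_threeStep (hCN : IsCNGroup G) [Group.IsSolvable G]
    (h : ∀ r : ℕ, r.Prime → ¬ IsThreeStepGroup r G) (p : ℕ) : ¬ IsThreeStepGroup p G := by
  rintro ⟨h0, A, hA0, -, -, hAc, hn, hne, ⟨n, hi⟩, hreg, hfin⟩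
  rw [← H28.semiReg_iff] at hreg
  obtain ⟨M, hM, hMH⟩ := H2.exists_isMinNormal_le (pCore p G) h0
  haveI := hM.1
  obtain ⟨r, hr, hMr⟩ := hM.exists_isPGroup
  haveI : Fact r.Prime := ⟨hr⟩
  obtain ⟨⟨m, hm⟩, hm1⟩ := (ne_bot_iff_exists_ne_one).1 hM.2.1
  have hm1' : m ≠ 1 := fun e => hm1 (Subtype.ext e)
  have hrm := PE.of_mem hMr hm
  have hrp : r ∣ p := by
    obtain ⟨k, hk⟩ := PE.of_mem pgrp_pCore (hMH hm)
    exact hr.dvd_of_dvd_pow ((hrm.dvd_orderOf hr hm1').trans (orderOf_dvd_of_pow_eq_one hk))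
  have hMO : M ≤ pCore r G := le_pCore hM.1 hMr
  have hO : pCore r G ≠ ⊥ := fun e => hM.2.1 (eq_bot_iff.2 (e ▸ hMO))
  have hs : SylIn r (pCore r G) ⊤ := by
    by_contra hs
    exact h r hr (cn_threeStep hCN hO hs)
  obtain ⟨P, hP⟩ := hs.exists_sylow_top
  obtain ⟨⟨a, ha⟩, ha1⟩ := (ne_bot_iff_exists_ne_one).1 hA0
  have ha1' : a ≠ 1 := fun e => ha1 (Subtype.ext e)
  have hAo : ∀ a ∈ A, (orderOf a).Coprime p := fun a ha =>
    Nat.Coprime.coprime_dvd_left (orderOf_dvd_card_of_mem ha) hAc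
  have hMF : M ≤ fittingHall G := hMO.trans (hP ▸ sylow_le_fittingHall P (hP ▸ inferInstance))
  have hAK : ∀ a ∈ A, a ∈ fittingHall G → a = 1 := by
    intro a ha haK
    by_contra h1
    exact hm1' (hreg a ha h1 m (hMH hm) (nil_commute_coprime fittingHall_nil hr (hMF hm) haK hrm
      ((hAo a ha).coprime_dvd_right hrp)).symm)
  have hnn : ¬ Group.IsNilpotent G := fun hn => ha1' (hAK a ha
    (le_fittingHall inferInstance (Group.isNilpotent_top.2 hn) (by simp) (mem_top a)))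
  obtain ⟨-, -, E, hE, -, -, -, hEn⟩ := cn_normal_sylow hCN hnn P (hP ▸ hO) (hP ▸ inferInstance)
  have hq : Group.IsNilpotent (G ⧸ fittingHall G) :=
    Group.nilpotent_of_mulEquiv hE.symm.QuotientMulEquiv.symm
  obtain ⟨s, hs', x, hsx, hx⟩ : ∃ s : ℕ, s.Prime ∧ ∃ x : G, PE s x ∧ x ∉ pCore p G ⊔ A := by
    by_contra hc
    push Not at hc
    exact hne (top_le_iff.1 (le_of_forall_PE fun q hq x _ hx => hc q hq x hx))
  have hsp : s ∣ p := by
    by_contra hc
    refine hx (mem_of_pow_mem_of_coprime (pow_index_mem _ x) ?_)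
    rw [hi]
    exact (hsx.coprime ((Nat.Prime.coprime_iff_not_dvd hs').2 hc)).symm.pow_left n
  apply hfin x hx a ha ha1'
  have hc1 : x * a * x⁻¹ * a⁻¹ ∈ fittingHall G := by
    have := nil_commute_coprime (Group.isNilpotent_top.2 hq) hs' (mem_top _) (mem_top _)
      (hsx.map (QuotientGroup.mk' (fittingHall G)))
      (Nat.Coprime.coprime_dvd_left (orderOf_map_dvd (QuotientGroup.mk' (fittingHall G)) a)
        ((hAo a ha).coprime_dvd_right hsp))
    rw [← commutatorElement_eq_one_iff_commute, ← map_commutatorElement] at this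
    exact (QuotientGroup.eq_one_iff _).1 this
  have hc2 : x * a * x⁻¹ * a⁻¹ ∈ pCore p G ⊔ A :=
    mul_mem (hn.conj_mem a (mem_sup_right ha) x) (inv_mem (mem_sup_right ha))
  by_contra hc
  obtain ⟨b, hb, c, hc', hc1', e⟩ := hreg.exists_conj (le_N_of_normal _ _) hc2 hc
  rw [e] at hc1
  exact hc1' (hAK c hc' (by simpa [mul_assoc] using (fittingHall_normal G).conj_mem _ hc1 b⁻¹))

theorem ms_not_threeStep (hG : IsMinSimpleOddOrder G)
    (hCN : IsCNGroup G) (H : Subgroup G) (p : ℕ) : ¬ IsThreeStepGroup p H := by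
  by_cases hH : H = ⊤
  · subst hH
    rintro ⟨h0, A, -, -, -, -, -, hne, -⟩
    haveI := hG.2.1
    haveI : IsSimpleGroup (⊤ : Subgroup G) := topEquiv.isSimpleGroup
    rcases (inferInstance : (pCore p (⊤ : Subgroup G)).Normal).eq_bot_or_eq_top with h | h
    · exact h0 h
    · exact hne (by rw [h, top_sup_eq])
  haveI := hG.2.2.2 H hH
  exact cn_not_threeStep (cn_subgroup hCN H)
    (fun r hr => haveI : Fact r.Prime := ⟨hr⟩; ms_not_threeStep_prime hG hCN H) p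

theorem ms_closed (hG : IsMinSimpleOddOrder G) (hCN : IsCNGroup G)
    {p : ℕ} [hp : Fact p.Prime] {L : Subgroup G} (hL : L ≠ ⊤) (h0 : pCoreOf p L ≠ ⊥) :
    SylIn p (pCoreOf p L) L := by
  haveI := hG.2.2.2 L hL
  rw [sylIn_pCoreOf_iff]
  by_contra hs
  exact ms_not_threeStep hG hCN L p
    (cn_threeStep (cn_subgroup hCN L) (fun e => h0 (pCoreOf_eq_bot_iff.2 e)) hs)

theorem ms_TI (hG : IsMinSimpleOddOrder G) (hCN : IsCNGroup G)
    {H : Subgroup G} (h : MaxNil H) (g : G) (hg : cj g H ≠ H) : H ⊓ cj g H = ⊥ := by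
  by_cases hpp : IsPrimePow (Nat.card H)
  swap
  · exact h.TI_of_not_isPrimePow hCN hpp g hg
  obtain ⟨p, k, hp, hk, e⟩ := (isPrimePow_nat_iff _).1 hpp
  haveI : Fact p.Prime := ⟨hp⟩
  have hH : IsPGroup p H := IsPGroup.of_card e.symm
  have hs := h.sylIn hCN hp (e ▸ dvd_pow_self p hk.ne')
  rw [pCoreOf_eq_self hH] at hs
  have hN : ∀ T : Subgroup G, IsPGroup p T → T ≠ ⊥ → T ≤ N[H] → N[T] ≤ N[H] := by
    intro T hT h0 hTM
    refine N_le_of_functor id (fun _ _ => rfl) (fun _ => le_rfl) (fun _ _ h => h)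
      (fun T hT h0 S hS => ?_) hs hT h0 hTM
    have h1 := ms_closed (p := p) hG hCN (ms_N_ne_top hG (pgrp_solvable hT) h0) fun e =>
      h0 (eq_bot_iff.2 (e ▸ le_pCoreOf le_normalizer le_rfl hT))
    rw [h1.max S hS.le hS.isP (pCoreOf_le_syl hS)]
    exact le_N_pCoreOf _
  rw [eq_bot_iff]
  rintro x ⟨h1, h2⟩
  by_contra hx1
  have := mem_of_N_le hN (g := g⁻¹) (le_normalizer h1) (PE.of_mem hH h1) hx1
    (le_normalizer (by simpa using mem_cj.1 h2))
  exact hg (cj_eq_of_mem_N (inv_mem_iff.1 this))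

theorem ms_maxNil_ne_bot (hG : IsMinSimpleOddOrder G) {H : Subgroup G} (h : MaxNil H) : H ≠ ⊥ := by
  rintro rfl
  haveI := hG.2.1
  obtain ⟨x, hx⟩ := exists_ne (1 : G)
  exact hx (zpowers_eq_bot.1 (h.2 (zpowers x)
    (nil_of_commute fun _ _ _ _ _ a ha b hb _ _ => mem_C.1 (isMulComm_iff.1 inferInstance hb) a ha) bot_le))

theorem ms_N_ne_self (hG : IsMinSimpleOddOrder G) (hCN : IsCNGroup G)
    {H : Subgroup G} (h : MaxNil H) : N[H] ≠ H := by
  intro e
  haveI := h.1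
  haveI := hG.2.1
  have h1 := ms_ne_top hG (inferInstance : Group.IsSolvable H)
  obtain ⟨K, -, hK, hc⟩ := H6.exists_frobeniusKernel (H := H) ⟨ms_maxNil_ne_bot hG h, h1,
    fun g hg => ms_TI hG hCN h g fun e' => hg (e ▸ mem_N_iff_cj.2 e')⟩
  rcases hK.eq_bot_or_eq_top with rfl | rfl
  · exact h1 (by simpa using hc.sup_eq_top)
  · exact ms_maxNil_ne_bot hG h (by simpa using hc.disjoint)

theorem ms_coatom (hG : IsMinSimpleOddOrder G) (hCN : IsCNGroup G)
    {H : Subgroup G} (h : MaxNil H) : IsCoatom N[H] := by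
  haveI := h.1
  have h0 := ms_maxNil_ne_bot hG h
  have hcent := fun x hx hx1 => h.cent_le hCN (ms_TI hG hCN h) (x := x) hx hx1
  refine ⟨ms_N_ne_top hG inferInstance h0, fun M hM => ?_⟩
  by_contra hMt
  haveI := hG.2.2.2 M hMt
  have hHM : H ≤ M := le_normalizer.trans hM.le
  haveI : Nontrivial M := (nontrivial_iff_ne_bot M).2 fun e => h0 (eq_bot_iff.2 (e ▸ hHM))
  obtain ⟨p, hp, hO⟩ := H2.exists_pCore_ne_bot (G := M)
  haveI : Fact p.Prime := ⟨hp⟩
  obtain ⟨P, hP⟩ := (sylIn_pCoreOf_iff.1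
    (ms_closed hG hCN hMt fun e => hO (pCoreOf_eq_bot_iff.1 e))).exists_sylow_top
  have hCNM := cn_subgroup hCN M
  have hnn : ¬ Group.IsNilpotent M := fun hn =>
    (lt_of_le_of_lt le_normalizer hM).ne' (h.2 M hn hHM)
  obtain ⟨hK0, -, E, hE, -, -, -, hEn⟩ := cn_normal_sylow hCNM hnn P (hP ▸ hO)
    (hP ▸ inferInstance)
  have hq : Group.IsNilpotent (M ⧸ fittingHall M) :=
    Group.nilpotent_of_mulEquiv hE.symm.QuotientMulEquiv.symm
  have hK : ∀ x y : M, x ∈ fittingHall M → x ≠ 1 → Commute x y → y ∈ fittingHall M :=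
    fun x y hx hx1 hc => cn_mem_fittingHall hCNM P (hP ▸ hO) (hP ▸ inferInstance) hx hx1 hc
  by_cases hHK : ∃ x : M, x ∈ fittingHall M ∧ (x : G) ∈ H ∧ x ≠ 1
  · obtain ⟨x, hxK, hxH, hx1⟩ := hHK
    obtain ⟨q, n, hq, h1, h2⟩ := exists_pow_PE_ne_one hx1
    have e : fittingHallOf M = H := by
      apply le_antisymm
      · obtain ⟨z, hz, hz1, -, hzc⟩ := nil_exists_center (fittingHall_nil (G := M)) hq
          (h1.dvd_card hq h2 (pow_mem hxK n))
        have hzH : (z : G) ∈ H := hcent x hxH (fun e => hx1 (Subtype.ext e))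
          (mem_cent_of_commute ((hzc x hxK).symm.map M.subtype))
        rintro _ ⟨k, hk, rfl⟩
        exact hcent z hzH (fun e => hz1 (Subtype.ext e))
          (mem_cent_of_commute ((hzc k hk).map M.subtype))
      · obtain ⟨w, hw, hw1, -, hwc⟩ := nil_exists_center h.1 hq
          ((PE.coe_iff.2 h1).dvd_card hq (fun e => h2 (Subtype.ext e)) (pow_mem hxH n))
        have hwK := hK x ⟨w, hHM hw⟩ hxK hx1 (Subtype.ext (hwc x hxH).symm)
        intro y hy
        exact ⟨⟨y, hHM hy⟩, hK _ _ hwK (fun e => hw1 (congrArg Subtype.val e))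
          (Subtype.ext (hwc y hy)), rfl⟩
    exact hM.not_ge (e ▸ le_N_map_subtype (fittingHall M))
  · push Not at hHK
    have hinj : Function.Injective
        ((QuotientGroup.mk' (fittingHall M)).comp (inclusion hM.le)) := by
      rw [injective_iff_map_eq_one]
      intro n hn
      have hn' : inclusion hM.le n ∈ fittingHall M := (QuotientGroup.eq_one_iff _).1 hn
      by_contra hn1
      obtain ⟨⟨y, hy⟩, hy1⟩ := (ne_bot_iff_exists_ne_one).1 h0
      have h1 : inclusion hM.le n * ⟨y, hHM hy⟩ * (inclusion hM.le n)⁻¹ * ⟨y, hHM hy⟩⁻¹ = 1 := by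
        apply hHK
        · have := mul_mem hn' ((fittingHall_normal M).conj_mem _ (inv_mem hn') ⟨y, hHM hy⟩)
          simpa only [mul_assoc] using this
        · exact mul_mem (conj_mem_of_N n.2 hy) (inv_mem hy)
      have h2 := hK _ ⟨y, hHM hy⟩ hn' (fun e => hn1 (inclusion_injective hM.le (by simpa using e)))
        (commutatorElement_eq_one_iff_commute.1 h1)
      exact hy1 (Subtype.ext (congrArg (fun z : M => (z : G)) (hHK _ h2 hy)))
    exact ms_N_ne_self hG hCN h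
      (h.2 _ (Group.nilpotent_of_mulEquiv (MonoidHom.ofInjective hinj).symm) le_normalizer)

theorem ms_complement (hG : IsMinSimpleOddOrder G) (hCN : IsCNGroup G)
    {H : Subgroup G} (h : MaxNil H) : ∃ E : Subgroup G, IsComplIn H E N[H] ∧ E ≠ ⊥ ∧
      ∀ e ∈ E, e ≠ 1 → H ⊓ centralizer ({e} : Set G) = ⊥ := by
  obtain ⟨E, h1, h2, h3, -⟩ := H1.exists_complement_in H N[H] le_normalizer le_rfl
    ((h.coprime hCN).coprime_dvd_right (Dvd.intro _ (relIndex_mul_index le_normalizer)))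
  refine ⟨E, ⟨le_normalizer, h1, h2, fun m hm => ?_⟩, ?_, fun e he he1 => ?_⟩
  · obtain ⟨a, ha, b, hb, e⟩ := (mem_sup_of_le_N' h1).1 (h3 ▸ hm)
    exact ⟨a, ha, b, hb, e.symm⟩
  · rintro rfl
    exact ms_N_ne_self hG hCN h (by simpa using h3.symm)
  · rw [eq_bot_iff]
    rintro x ⟨hx, hc⟩
    by_contra hx1
    have := h.cent_le hCN (ms_TI hG hCN h) hx hx1
      (mem_cent_of_commute (commute_of_mem_cent hc).symm)
    exact he1 (by simpa using h2.le ⟨this, he⟩)

theorem ms_exists_maxNil (hG : IsMinSimpleOddOrder G) (hCN : IsCNGroup G)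
    {M : Subgroup G} (hM : IsCoatom M) : ∃ H, MaxNil H ∧ M = N[H] := by
  haveI := hG.2.2.2 M hM.1
  have hM0 : M ≠ ⊥ := by
    rintro rfl
    obtain ⟨H, hH, -⟩ := exists_maxNil (K := (⊥ : Subgroup G)) inferInstance
    haveI := hH.1
    exact ms_ne_top hG inferInstance (hM.2 H (bot_lt_iff_ne_bot.2 (ms_maxNil_ne_bot hG hH)))
  haveI : Nontrivial M := (nontrivial_iff_ne_bot M).2 hM0
  obtain ⟨p, hp, hO⟩ := H2.exists_pCore_ne_bot (G := M)
  haveI : Fact p.Prime := ⟨hp⟩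
  obtain ⟨H, hH, hle⟩ := exists_maxNil (pgrp_nilp (pgrp_pCoreOf (p := p) M))
  refine ⟨H, hH, ?_⟩
  have h1 : M ≤ N[H] := by
    intro g hg
    rw [mem_N_iff_cj]
    by_contra hne
    apply hO
    rw [← pCoreOf_eq_bot_iff, eq_bot_iff, ← ms_TI hG hCN hH g hne]
    exact le_inf hle ((cj_eq_of_mem_N (le_N_pCoreOf M hg)).ge.trans (cj_mono g hle))
  exact (hM.le_iff.1 h1).resolve_left (ms_coatom hG hCN hH).1 |>.symm

theorem fittingHallOf_N (hCN : IsCNGroup G) {H : Subgroup G} (h : MaxNil H) :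
    fittingHallOf N[H] = H := by
  haveI := fittingHall_nil (G := N[H])
  refine h.2 _ (H2.isNilpotent_map _ _) fun x hx => ⟨⟨x, le_normalizer hx⟩, ?_, rfl⟩
  haveI := h.1
  refine le_fittingHall (N := H.subgroupOf N[H]) inferInstance
    (Group.nilpotent_of_mulEquiv (subgroupOfEquivOfLe le_normalizer).symm) ?_ hx
  rw [Nat.card_congr (subgroupOfEquivOfLe le_normalizer).toEquiv]
  exact (h.coprime hCN).coprime_dvd_right (Dvd.intro _ (relIndex_mul_index le_normalizer))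

end Cfsg.Agent.H20
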