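import Cfsg.Agent.H20.Icp1
import Cfsg.Agent.H20.Icp3
import Cfsg.Agent.H17.Icp4

/-! If the involution of `J` normalises `K`, then the involution of `K` normalises `J`. -/

set_option autoImplicit false

namespace Cfsg.Agent.H1.Ic

open Subgroup Cfsg.Agent.FT Cfsg.Agent.GW
open scoped commutatorElement

variable {G : Type*} [Group G] [Finite G] {J J' K D M Q T : Subgroup G} {a b x y : G}

theorem p7x_comm (hT : PGrp 2 T) (hD : PiGrp {2}ᶜ D) (h1 : ⁅x, y⁆ ∈ T) (h2 : ⁅x, y⁆ ∈ D) : x * y = y * x := by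
  have : ⁅x, y⁆ ∈ T ⊓ D := ⟨h1, h2⟩
  rw [hT.inf_eq_bot hD, mem_bot] at this
  exact commutatorElement_eq_one_iff_mul_comm.1 this

theorem p7_x (hJ : Ic J a) (hK : Ic K b) (hn : a ∈ N(K)) : b ∈ N(J) := by
  have hab : a * b = b * a := mul_inv_eq_iff_eq_mul.1 (hK.uniq _ (conj_mem hn hK.mem) (hK.inv.conj a))
  have hbC : b ∈ C[a] := mem_cen1.2 hab.symm
  have haC : a ∈ C[b] := mem_cen1.2 hab
  by_contra hb
  obtain ⟨D, hD, hDl, nc, mem, -⟩ := p3 hJ.pc hK.inv hbC hb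
  have hJ' := hJ.pc.cj_of_mem hbC
  have hne : J ≠ cj b J := fun e => hb (cj_eq_self.1 e.symm)
  have cJ : ⁅J, cj b J⁆ ≤ O[{2}ᶜ](J) := (hJ.pc.comm_of_ne hJ' hne).trans inf_le_left
  have nJ : J ⊔ cj b J ≤ N(J) := sup_le (le_nrm J) (hJ'.norms_pcomp hJ.pc)
  obtain ⟨T, hT, l⟩ := hK.inv.pGrp.exists_syl (zpowers_le.2 hbC)
  have bT := l (mem_zpowers b)
  have hQ := hT.inf_subn hJ.pc.subn
  obtain ⟨x, hx, xx, -⟩ := p4c hJ hQ hJ.inv
    (cents_norm (centsS (hQ.le.trans hJ.pc.le) le_rfl) (le_cen1.1 le_rfl))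
  obtain ⟨x', hx'⟩ : ∃ x', x' = b * x * b⁻¹ := ⟨_, rfl⟩
  have x'T : x' ∈ T := hx' ▸ mul_mem (mul_mem bT hx.1) (inv_mem bT)
  have x'J : x' ∈ cj b J := hx' ▸ conj_mem_cj.2 hx.2
  have c1 : x * x' = x' * x := p7x_comm hT.pi (pcore_pi _ J)
    (mul_mem (mul_mem (mul_mem hx.1 x'T) (inv_mem hx.1)) (inv_mem x'T)) (cJ (commutator_mem_commutator hx.2 x'J))
  have x2 : PiElt {2} x := hT.pi.piElt hx.1
  have xx' : x' * x' = a := by rw [hx', conj_mul, xx, ← hab, mul_inv_cancel_right]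
  obtain ⟨e, he⟩ : ∃ e, e = x * x' := ⟨_, rfl⟩
  have eD : e ∈ D := by rw [he, hx']; exact mem x hx.2 x2 (hx' ▸ c1)
  have nx : x ∉ cenMod 2 C[a] J := fun m =>
    hJ.inv.ne (xx ▸ p4a hJ hx.2 x2 (hJ.pc.le_cenMod.1 (zpowers_le.2 m)).2)
  have mx' : x' ∈ cenMod 2 C[a] J := hJ.pc.le_cenMod.2 ⟨hJ'.le, cJ⟩ x'J
  have ei : Invo e := invo_of (by rw [he, mul_assoc, ← mul_assoc x', ← c1, mul_assoc, ← mul_assoc, xx, xx', hJ.inv.sq])
    fun e1 => nx (by rw [eq_inv_of_mul_eq_one_left (he.symm.trans e1)]; exact inv_mem mx')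
  have ea : e * a = a * e := mem_cen1.1 (hD.le eD).1
  have eb : e * b = b * e := mem_cen1.1 (hD.le eD).2
  have cK : ⁅K, D⁆ ≤ O[{2}ᶜ](K) := (p1 hK.pc hJ.inv haC hn (inf_comm C[a] C[b] ▸ hD)).resolve_left fun e1 =>
    hb (hK.uniq e (e1 eD) ei ▸ nJ (hDl eD))
  have eK : e ∈ N(K) := norms_of_comm_le (cK.trans (pcore_le _ K)) eD
  obtain ⟨R, hR, nR, -⟩ := (hJ.inv.pGrp.sup ei.pGrp (cents_norm (zpowers_le.2
    ((cen_zpowers a).symm ▸ mem_cen1.2 ea)))).exists_syl_norms (sup_le (zpowers_le.2 hn) (zpowers_le.2 eK))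
  obtain ⟨k, hk, kk, ak⟩ := p4c hK hR hJ.inv (nR (mem_sup_left (mem_zpowers a)))
  have kK := hR.le hk
  have ke : k * e = e * k := p7x_comm hR.pi (pcore_pi _ K)
    (by rw [commutatorElement_def, mul_assoc, mul_assoc, ← mul_assoc e]
        exact mul_mem hk (conj_mem (nR (mem_sup_right (mem_zpowers e))) (inv_mem hk)))
    (cK (commutator_mem_commutator kK eD))
  have kb : k * b = b * k := mem_cen1.1 (hK.pc.le kK)
  rcases ak with ak | ak
  · have kC : k ∈ C[a] := mem_cen1.2 (mul_inv_eq_iff_eq_mul.1 ak).symm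
    have kM : ⟪k⟫ ≤ C[a] ⊓ C[b] := zpowers_le.2 ⟨kC, hK.pc.le kK⟩
    have kD : k ∈ N(D) := hD.normed_of_comm (kM.trans (le_nrm _)) (le_trans (le_inf (comm_le_of_le
      (hD.le.trans inf_le_left) (kM.trans inf_le_left)) ((commSS le_rfl (zpowers_le.2 kK)).trans
      (commC K D ▸ cK.trans hK.pc.core_le))) (pcore_max ((pcore_pi _ _).inf_right _)
      ((pcore_nml _ _).inf_left _))) (mem_zpowers k)
    have hJk := hJ.pc.cj_of_mem kC
    have hW : Subn (J ⊔ cj b J) C[a] := by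
      rw [← orbs_two hK.inv]; exact hJ.pc.subn.orbs (zpowers_le.2 (le_nrm _ hbC))
    have kJ : k ∈ N(J) := by
      rcases hJk.le_or_comm hW with e1 | e1
      · rcases hJk.eq_or_eq hJ.pc hJ' e1 with e2 | e2
        · exact cj_eq_self.1 e2
        · rw [← kk, ← cj_cj, cj_eq_cj] at e2
          exact cj_eq_self.1 e2.symm
      · refine (nc ?_).elim
        rw [← cj_le_cj (g := k), cj_comm, cj_pcore, cj_of_mem_nrm kD]
        exact (commSS le_rfl hDl).trans e1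
    exact hb (kk ▸ mul_mem kJ kJ)
  · have xa : x * a = a * x := by rw [← xx, mul_assoc]
    have xe : x * e * x⁻¹ = e := by rw [he, c1, ← mul_assoc, mul_inv_cancel_right, c1]
    have xb : x * b * x⁻¹ = e * a * b := by
      have i1 : x'⁻¹ = x' * a := inv_eq_of_mul_eq_one_right (by rw [← mul_assoc, xx', hJ.inv.sq])
      calc _ = x * x'⁻¹ * b := by rw [hx']; group
        _ = _ := by rw [i1, he, mul_assoc x x']
    have ka : k * a * k⁻¹ = a * b := by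
      have : k * a * k⁻¹ = k * (a * k * a⁻¹)⁻¹ * a := by group
      rw [this, ak, kb, mul_inv_rev, mul_inv_cancel_left, hK.inv.inv, hab]
    have ke' : k * e * k⁻¹ = e := mul_inv_eq_iff_eq_mul.2 ke
    have kb' : k * b * k⁻¹ = b := mul_inv_eq_iff_eq_mul.2 kb
    have g1 : k * x * b * (k * x)⁻¹ = a * e := by
      calc _ = k * (x * b * x⁻¹) * k⁻¹ := by group
        _ = _ := by rw [xb, ← conj_mul, ← conj_mul, ke', ka, kb', mul_assoc, hK.inv.cancel', ea]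
    have g2 : k * x * (b * e) * (k * x)⁻¹ = a := by
      calc _ = k * x * b * (k * x)⁻¹ * (k * (x * e * x⁻¹) * k⁻¹) := by group
        _ = _ := by rw [g1, xe, ke', ei.cancel']
    have hK' := hK.cj (k * x)
    rw [g1] at hK'
    have c2 : ⁅K, ⟪b * e⟫⁆ ≤ O[{2}ᶜ](K) := by
      refine (hK.pc.le_cenMod.1 (zpowers_le.2 (mul_mem ?_ ?_))).2
      · refine hK.pc.le_cenMod.2 ⟨zpowers_le.2 (mem_cen1.2 rfl), ?_⟩ (mem_zpowers b)
        rw [comm_eq_bot.2 ((cen_zpowers b).symm ▸ hK.pc.le)]; exact bot_le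
      · exact hK.pc.le_cenMod.2 ⟨hD.le.trans inf_le_right, cK⟩ eD
    rw [← cj_le_cj (g := k * x), cj_comm, cj_pcore, cj_zpowers, g2] at c2
    have h3 := (hK'.pc.cent_cover hJ.inv.pGrp c2).1
    rw [cen_zpowers, inf_comm C[a * e]] at h3
    have aeC : a * e ∈ C[a] := mul_mem (mem_cen1.2 rfl) (hD.le eD).1
    have m : a * e ∈ piGen {2} (cj (k * x) K ⊓ C[a]) := mem_piGen ⟨hK'.mem, aeC⟩ hK'.inv.pElt
    rcases p1 hJ.pc hK'.inv aeC (mul_mem (le_nrm J hJ.mem) (nJ (hDl eD))) h3 with e1 | e1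
    · exact ei.ne (mul_eq_left.1 (hJ.uniq _ (e1 m) hK'.inv))
    · have m2 := hJ.pc.le_cenMod.2 ⟨h3.le.trans inf_le_left, e1⟩ m
      have i1 : x⁻¹ = a * e * x'⁻¹ := inv_eq_of_mul_eq_one_right (by
        rw [he, ← mul_assoc a, mul_inv_cancel_right, ← xa, ← mul_assoc, xx, hJ.inv.sq])
      exact nx (inv_mem_iff.1 (i1 ▸ mul_mem m2 (inv_mem mx')))

end Cfsg.Agent.H1.Ic
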