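import Cfsg.Agent.H23.Inv
import Cfsg.Agent.FT.BG03a
import Cfsg.Agent.H7.Solv

/-! Coprime action of a group of type `(q, q)` with abelian fixed point subgroups. -/

set_option autoImplicit false
set_option linter.unusedSectionVars false
set_option linter.unusedVariables false
set_option linter.style.haveILetI false

namespace Cfsg.Agent.H20.Mt

open Cfsg Cfsg.Agent.FT Subgroup
open scoped commutatorElement Pointwise

universe u

variable {G : Type*} [Group G] [Finite G] {π : Set ℕ} {p q r s : ℕ}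
  {A D E K L M P Q R T T' U V W X Y : Subgroup G}

structure Hy (q : ℕ) (A K : Subgroup G) : Prop where
  el : PnElem q 2 A A
  q2 : q ≠ 2
  nrm : A ≤ N(K)
  cop : Cop K A
  ab : ∀ X, PnElem q 1 X A → Ab (K ⊓ C(X))
  fpf : K ⊓ C(A) = ⊥

theorem four (h : PnElem q 2 A A) (h2 : q ≠ 2) {X₁ X₂ X₃ : Subgroup G} (h1 : PnElem q 1 X₁ A)
    (h2' : PnElem q 1 X₂ A) (h3 : PnElem q 1 X₃ A) :
    ∃ Y, PnElem q 1 Y A ∧ Y ≠ X₁ ∧ Y ≠ X₂ ∧ Y ≠ X₃ := by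
  classical
  have hq := h.prime
  have q3 : 3 ≤ q := by have := hq.two_le; omega
  have key : ∃ a ∈ A, a ∉ X₁ ∧ a ∉ X₂ ∧ a ∉ X₃ := by
    by_contra hc
    push Not at hc
    have hs : (A : Set G) \ {1} ⊆ (((X₁ : Set G) \ {1}) ∪ ((X₂ : Set G) \ {1})) ∪ ((X₃ : Set G) \ {1}) := by
      rintro a ⟨ha, h1⟩
      by_cases a1 : a ∈ X₁
      · exact .inl (.inl ⟨a1, h1⟩)
      by_cases a2 : a ∈ X₂
      · exact .inl (.inr ⟨a2, h1⟩)
      exact .inr ⟨hc a ha a1 a2, h1⟩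
    have c : ∀ Z : Subgroup G, ((Z : Set G) \ {1}).ncard + 1 = #Z := fun Z => by
      rw [Set.ncard_sdiff_singleton_add_one (show (1 : G) ∈ (Z : Set G) from Z.one_mem)]; rfl
    have e := (Set.ncard_le_ncard hs).trans ((Set.ncard_union_le _ _).trans
      (Nat.add_le_add_right (Set.ncard_union_le _ _) _))
    have c0 := c A
    have c1 := c X₁
    have c2 := c X₂
    have c3 := c X₃
    rw [h.card] at c0
    rw [h1.card_one] at c1
    rw [h2'.card_one] at c2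
    rw [h3.card_one] at c3
    nlinarith
  obtain ⟨a, ha, a1, a2, a3⟩ := key
  have a0 : a ≠ 1 := by rintro rfl; exact a1 (one_mem _)
  refine ⟨⟪a⟫, h.zpowers ha a0, ?_, ?_, ?_⟩ <;> rintro rfl
  · exact a1 (mem_zpowers a)
  · exact a2 (mem_zpowers a)
  · exact a3 (mem_zpowers a)

namespace Hy

theorem abA (h : Hy q A K) : Ab A := h.el.ab

theorem mono (h : Hy q A K) (hL : L ≤ K) (hn : A ≤ N(L)) : Hy q A L :=
  ⟨h.el, h.q2, hn, h.cop.mono_left hL, fun X hX => (h.ab X hX).mono (inf_le_inf_right _ hL),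
    eq_bot_of_le (inf_le_inf_right _ hL) h.fpf⟩

theorem nc (h : Hy q A K) (hX : PnElem q 1 X A) : A ≤ N(C(X)) := norms_cent (h.abA.norms hX.le)

theorem nc' (h : Hy q A K) (hX : PnElem q 1 X A) (hU : A ≤ N(U)) : A ≤ N(U ⊓ C(X)) := normsI hU (h.nc hX)

theorem two (h : Hy q A K) (hX : PnElem q 1 X A) (hY : PnElem q 1 Y A) (hne : X ≠ Y) :
    K ⊓ C(X) ⊓ C(Y) = ⊥ := by
  rw [inf_assoc, ← cen_sup, (h.el.dp_two hX hY hne).mulEq.sup, h.fpf]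

theorem gen (h : Hy q A K) (hU : U ≤ K) (hn : A ≤ N(U)) (hL : ∀ X, PnElem q 1 X A → U ⊓ C(X) ≤ L) : U ≤ L :=
  h.el.gen_cent_one hn (h.cop.mono_left hU) hL

theorem ex (h : Hy q A K) (hU : U ≤ K) (hn : A ≤ N(U)) (h1 : U ≠ ⊥) : ∃ X, PnElem q 1 X A ∧ U ⊓ C(X) ≠ ⊥ :=
  h.el.exists_cent_ne hn (h.cop.mono_left hU) h1

theorem cents (h : Hy q A K) (hX : PnElem q 1 X A) (hU : U ≤ K ⊓ C(X)) (hV : V ≤ K ⊓ C(X)) : U ≤ C(V) :=
  (h.ab X hX).cents hV hU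

/-- The key consequence of Wielandt's fixed point formula. -/
theorem kp (h : Hy q A K) (hX : PnElem q 1 X A) (hY : PnElem q 1 Y A) (hne : X ≠ Y) (hT : T ≤ K ⊓ C(X))
    (nT : A ≤ N(T)) (hV : V ≤ K) (sV : Sol V) (nV : A ≤ N(V)) (tV : T ≤ N(V)) (hc : Cop V T) (hM : M ≤ V)
    (nM : A ≤ N(M)) (tM : T ≤ N(M)) (hYM : V ⊓ C(Y) ≤ M) : ⁅V, T⁆ ≤ M := by
  have reg : SemiReg T Y := fun y hy y1 => by
    have : ⟪y⟫ = Y := (hY.zpowers hy y1).eq_of_le hY (zpowers_le.2 hy)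
    rw [← cen_zpowers, this]
    exact eq_bot_of_le (inf_le_inf_right _ hT) (h.two hX hY hne)
  have yA := hY.le
  have cV : Cop V (T ⊔ Y) := hc.sup_right (h.cop.mono hV yA) (yA.trans nT)
  have e1 := H28.wielandt_card (yA.trans nT) reg.h28 (sup_le tV (yA.trans nV)) sV cV
  have e2 := H28.wielandt_card (yA.trans nT) reg.h28 (sup_le tM (yA.trans nM)) (sV.mono hM) (cV.mono_left hM)
  have f1 : V ⊓ C(Y) = M ⊓ C(Y) := le_antisymm (le_inf hYM inf_le_right) (inf_le_inf_right _ hM)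
  have f2 : V ⊓ C(T ⊔ Y) = M ⊓ C(T ⊔ Y) :=
    le_antisymm (le_inf ((inf_le_inf_left _ (cen_anti le_sup_right)).trans hYM) inf_le_right) (inf_le_inf_right _ hM)
  change #(V ⊓ C(T ⊔ Y)) ^ #Y * #V = #(V ⊓ C(Y)) ^ #Y * #(V ⊓ C(T)) at e1
  change #(M ⊓ C(T ⊔ Y)) ^ #Y * #M = #(M ⊓ C(Y)) ^ #Y * #(M ⊓ C(T)) at e2
  rw [f1, f2] at e1
  have pos : 0 < #(M ⊓ C(T ⊔ Y)) ^ #Y := pow_pos Nat.card_pos _
  have me : MulEq M (V ⊓ C(T)) V := by
    refine mulEq_of_card hM inf_le_left (le_of_eq (Nat.eq_of_mul_eq_mul_left pos ?_))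
    rw [← inf_assoc, inf_eq_left.2 hM]
    calc _ = (#(M ⊓ C(T ⊔ Y)) ^ #Y * #V) * #(M ⊓ C(T)) := by ring
      _ = (#(M ⊓ C(Y)) ^ #Y * #(M ⊓ C(T))) * #(V ⊓ C(T)) := by rw [e1]; ring
      _ = _ := by rw [← e2]; ring
  rw [me.comm_eq_of_cents inf_le_right]
  exact comm_le_left tM

theorem k0 (h : Hy q A K) (hX : PnElem q 1 X A) (hY : PnElem q 1 Y A) (hne : X ≠ Y) (hT : T ≤ K ⊓ C(X))
    (nT : A ≤ N(T)) (hV : V ≤ K) (sV : Sol V) (nV : A ≤ N(V)) (tV : T ≤ N(V)) (hc : Cop V T)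
    (hYM : V ⊓ C(Y) ≤ C(T)) : T ≤ C(V) :=
  coprime_cents_of_comm_cents tV hc ((h.kp hX hY hne hT nT hV sV nV tV hc (M := V ⊓ C(T)) inf_le_left
    (norms_subcent nV nT) (norms_subcent tV (le_nrm T)) (le_inf inf_le_left hYM)).trans inf_le_right)

theorem k3 (h : Hy q A K) (hX : PnElem q 1 X A) (hY : PnElem q 1 Y A) (hne : X ≠ Y) (hT : T ≤ K ⊓ C(X))
    (nT : A ≤ N(T)) (hV : V ≤ K) (sV : Sol V) (nV : A ≤ N(V)) (tV : T ≤ N(V)) (hc : Cop V T)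
    (hT' : T' ≤ K ⊓ C(Y)) (nT' : A ≤ N(T')) (tT : T ≤ N(T')) : ⁅V, T⁆ ≤ C(T') :=
  (h.kp hX hY hne hT nT hV sV nV tV hc (M := V ⊓ C(T')) inf_le_left (norms_subcent nV nT')
    (norms_subcent tV tT) (le_inf inf_le_left (h.cents hY (inf_le_inf_right _ hV) hT'))).trans inf_le_right

theorem g0 (h : Hy q A K) (hX : PnElem q 1 X A) (hQ : Q ≤ K) (nil : Nil Q) (nQ : A ≤ N(Q))
    (hL : ∀ Y, PnElem q 1 Y A → Y ≠ X → Q ⊓ C(Y) ≤ L) : ⁅Q, X⁆ ≤ L := by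
  have xQ := hX.le.trans nQ
  have le := comm_le_left xQ
  have cQ : Cop Q X := h.cop.mono hQ hX.le
  have nC : A ≤ N(⁅Q, X⁆) := normsR nQ (h.abA.norms hX.le)
  have e := (nil.mono le).eq_of_le_sup_der (H := ⁅Q, X⁆ ⊓ L) inf_le_left
    (h.gen (le.trans hQ) nC fun Y hY => ?_)
  · exact e ▸ inf_le_right
  by_cases hne : Y = X
  · subst hne
    have := coprime_cent_comm_le_der (hY.le.trans nC) (cQ.mono_left le)
    rw [coprime_commGid xQ cQ] at this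
    exact this.trans le_sup_left
  · exact (le_inf inf_le_left ((inf_le_inf_right _ le).trans (hL Y hY hne))).trans le_sup_right

theorem der_le (h : Hy q A K) (hX : PnElem q 1 X A) (hQ : Q ≤ K) (nQ : A ≤ N(Q)) : ⁅Q, Q⁆ ≤ ⁅Q, X⁆ := by
  have xQ := hX.le.trans nQ
  have e := (coprime_cent_prod_or xQ (h.cop.mono hQ hX.le) (.inr hX.ab.sol)).sup
  have n : Q ⊓ C(X) ≤ N(⁅Q, X⁆) := inf_le_left.trans (norm_comm_left _ _)
  have := der_sup_le n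
  rw [e, ab_iff_der.1 ((h.ab X hX).mono (inf_le_inf_right _ hQ)), sup_bot_eq] at this
  exact this

theorem abq (h : Hy q A K) (hQ : Q ≤ K) (nil : Nil Q) (nQ : A ≤ N(Q)) (hV : V ≤ K) (sV : Sol V)
    (nV : A ≤ N(V)) (qV : Q ≤ N(V)) (hc : Cop V Q) (hf : Q ⊓ C(V) = ⊥) : Ab Q := by
  rw [ab_iff_der]
  by_contra h1
  have nE := normsI (norms_der nQ) (norms_center nQ)
  have lE : ⁅Q, Q⁆ ⊓ Z(Q) ≤ Q := inf_le_left.trans (FT.der_le Q)
  obtain ⟨X, hX, hE⟩ := h.ex (lE.trans hQ) nE (nil.meet_center (der_nml Q) h1)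
  set E := ⁅Q, Q⁆ ⊓ Z(Q) ⊓ C(X) with hEd
  have l1 : E ≤ Q := inf_le_left.trans lE
  have c1 : E ≤ C(Q) := inf_le_left.trans (inf_le_right.trans inf_le_right)
  have := h.g0 hX hQ nil nQ (L := C(⁅V, E⁆)) fun Y hY hne => centsC
    (h.k3 hX hY hne.symm (le_inf (l1.trans hQ) inf_le_right) (h.nc' hX nE) hV sV nV (l1.trans qV)
      (hc.mono_right l1) (inf_le_inf_right _ hQ) (h.nc' hY nQ) (cents_norm (centsS inf_le_left c1)))
  have l2 : E ≤ C(⁅V, E⁆) := (inf_le_left.trans inf_le_left).trans ((h.der_le hX hQ nQ).trans this)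
  exact hE (eq_bot_of_le (le_inf l1 (coprime_cents_of_comm_cents (l1.trans qV) (hc.mono_right l1) (centsC l2))) hf)

end Hy

theorem npc_inv (hp : p.Prime) (hs : Sol L) (hn : A ≤ N(L)) (hc : Cop L A)
    (h : ∀ D R s, s.Prime → s ≠ p → PGrp p D → PGrp s R → D ≤ L → R ≤ L → A ≤ N(D) → A ≤ N(R) → R ≤ N(D) →
      R ≤ C(D)) : NPC p L := by
  set O := O[{p}ᶜ](L)
  have nO : O ⊴ L := pcore_nml _ _
  have aO : A ≤ N(O) := norms_pcore _ hn
  set H := qpre(O, O[{p}](L /ₛ O))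
  have nH : H ⊴ L := qpre_nml nO (pcore_nml _ _)
  have aH : A ≤ N(H) := norms_qpre aO (norms_pcore _ (quo_norms O hn))
  obtain ⟨D, hD, aD⟩ := coprime_Sylow_exists p aH (hc.mono_left nH.le) (.inl (hs.mono nH.le))
  have eD : D /ₛ O = O[{p}](L /ₛ O) := by
    have := hD.quo (K := O) (qpre_le _)
    rw [quo_qpre] at this
    exact this.eq_of_piGrp (pcore_pi _ _)
  have dL := hD.le.trans nH.le
  have fr := hD.frattini nH
  have aN : A ≤ N(L ⊓ N(D)) := normsI hn (norms_norm aD)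
  have k : PiNat {p} (O.relIndex (L ⊓ N(D))) := by
    intro s hs' hd
    by_contra hne
    obtain ⟨R, hR, aR⟩ := coprime_Sylow_exists s aN (hc.mono_left inf_le_left) (.inl (hs.mono inf_le_left))
    have rL := hR.le.trans inf_le_left
    have c := h D R s hs' hne hD.pi hR.pi dL rL aD aR (hR.le.trans inf_le_right)
    have : R ≤ O := le_p'core_of_quo_cents hs rL (hR.pi.p' hne) (eD ▸ quo_cents O c)
    exact (hR.relIndex_of_le this) s hs' hd rfl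
  refine npc_of_relIndex ((piGrp_quo_iff nO.nrm).1 ((fr.quo nO.nrm).piGrp ?_ ?_))
  · rw [quo_qpre]; exact pcore_pi _ _
  · exact (piGrp_quo_iff (inf_le_left.trans nO.nrm)).2 k

namespace Hy

theorem tri (h : Hy q A K) (hX : PnElem q 1 X A) (hT : T ≤ K ⊓ C(X)) (nT : A ≤ N(T)) (hD : D ≤ K)
    (nil : Nil D) (nD : A ≤ N(D)) (tD : T ≤ N(D)) (cT : Cop D T) (hV : V ≤ K) (sV : Sol V) (nV : A ≤ N(V))
    (dV : D ≤ N(V)) (cV : Cop V D) (hf : D ⊓ C(V) = ⊥) : T ≤ C(D) := by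
  have ab := h.abq hD nil nD hV sV nV dV cV hf
  obtain ⟨Y, hY, y1, -, -⟩ := four h.el h.q2 hX hX hX
  obtain ⟨Y', hY', z1, z2, -⟩ := four h.el h.q2 hX hY hY
  have lC : ⁅D, T⁆ ≤ D := comm_le_left tD
  have nC : A ≤ N(⁅D, T⁆) := normsR nD nT
  set E := ⁅D, T⁆ ⊓ C(Y) with hE
  have eD : E ≤ D := inf_le_left.trans lC
  have nE : A ≤ N(E) := h.nc' hY nC
  have eK : E ≤ K ⊓ C(Y) := inf_le_inf_right _ (lC.trans hD)
  have eV := eD.trans dV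
  have lW : ⁅V, E⁆ ≤ V := comm_le_left eV
  have nW : A ≤ N(⁅V, E⁆) := normsR nV nE
  have a1 : ⁅V, E⁆ ≤ C(D ⊓ C(Y')) := h.k3 hY hY' z2.symm eK nE hV sV nV eV (cV.mono_right eD)
    (inf_le_inf_right _ hD) (h.nc' hY' nD) (eD.trans (ab.norms inf_le_left))
  have nU := h.nc' hX nW
  have uK : ⁅V, E⁆ ⊓ C(X) ≤ K ⊓ C(X) := inf_le_inf_right _ (lW.trans hV)
  have a2 : ⁅D, T⁆ ≤ D ⊓ C(⁅V, E⁆ ⊓ C(X)) := h.kp hX hY' z1.symm hT nT hD nil.sol nD tD cT inf_le_left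
    (norms_subcent nD nU) (norms_subcent tD (cents_norm (h.cents hX hT uK)))
    (le_inf inf_le_left (centsC (inf_le_left.trans a1)))
  have a3 : E ≤ C(⁅V, E⁆) := h.k0 hY hX y1 eK nE (lW.trans hV) (sV.mono lW) nW (norm_comm_right _ _)
    (cV.mono lW eD) (centsC (inf_le_left.trans (a2.trans inf_le_right)))
  have a4 : E = ⊥ := eq_bot_of_le
    (le_inf eD (coprime_cents_of_comm_cents eV (cV.mono_right eD) (centsC a3))) hf
  have a5 : T ≤ C(⁅D, T⁆) := h.k0 hX hY y1.symm hT nT (lC.trans hD) (nil.sol.mono lC) nC (norm_comm_right _ _)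
    (cT.mono_left lC) (by rw [← hE, a4]; exact bot_le)
  exact coprime_cents_of_comm_cents tD cT (centsC a5)

theorem le_syl (h : Hy q A K) (hP : Syl p P K) (nP : A ≤ N(P)) (hD : D ≤ K) (pD : PGrp p D) (nD : A ≤ N(D)) :
    D ≤ P := by
  obtain ⟨c, hc, e⟩ := coprime_Sylow_Jsub h.nrm h.cop (.inr h.abA.sol) hP nP hD pD nD
  rw [h.fpf, mem_bot] at hc
  rwa [hc, cj_one] at e

theorem syl_inf (h : Hy q A K) (hP : Syl p P K) (nP : A ≤ N(P)) (hW : W ≤ K) (nW : A ≤ N(W)) :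
    Syl p (W ⊓ P) W := by
  obtain ⟨D, hD, nD⟩ := coprime_Sylow_exists p nW (h.cop.mono_left hW) (.inr h.abA.sol)
  have := hD.max (hP.pi.inf_right W) (le_inf hD.le (h.le_syl hP nP (hD.le.trans hW) hD.pi nD)) inf_le_left
  rwa [this]

/-- A group with `O_r = 1` of order `p^a r^b` is `p`-closed. -/
theorem npc3 (h : Hy q A K) (hp : p.Prime) (hr : r.Prime) (hne : p ≠ r) (hL : L ≤ K) (sL : Sol L)
    (nL : A ≤ N(L)) (hπ : PiGrp {p, r} L) (h0 : O[{p}ᶜ](L) = ⊥) : NPC r L := by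
  refine npc_inv hr sL nL (h.cop.mono_left hL) fun D R s hs hsr hD hR dL rL nD nR rD => ?_
  refine h.gen (rL.trans hL) nR fun X hX => ?_
  refine h.tri hX (inf_le_inf_right _ (rL.trans hL)) (h.nc' hX nR) (dL.trans hL) hD.nil nD
    (inf_le_left.trans rD) (hD.cop_of_ne (hR.inf_left _) hsr.symm) ((pcore_le {p} L).trans hL)
    (pcore_pi _ _).sol (norms_pcore _ nL) (dL.trans (pcore_nrm _ _)) ((pcore_pi _ _).cop_of_ne hD hne) ?_
  exact eq_bot_of_le (le_inf inf_le_left ((inf_le_inf_right _ dL).trans (cent_sub_pcore sL h0)))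
    (hD.cop_of_ne (pcore_pi _ _) hne.symm).inf

theorem s1 (h : Hy q A K) (hp : p.Prime) (hP : Syl p P K) (nP : A ≤ N(P)) (hL : L ≤ K) (sL : Sol L)
    (nL : A ≤ N(L)) (hn : ¬ NPC p L) : ∃ X, PnElem q 1 X A ∧ ∀ Y, PnElem q 1 Y A → Y ≠ X → P ⊓ C(Y) ≠ ⊥ := by
  by_contra hc
  push Not at hc
  refine hn (npc_inv hp sL nL (h.cop.mono_left hL) fun D R s hs hsr hD hR dL rL nD nR rD => ?_)
  refine h.gen (rL.trans hL) nR fun X hX => ?_
  obtain ⟨Y, hY, hne, e⟩ := hc X hX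
  refine h.k0 hX hY hne.symm (inf_le_inf_right _ (rL.trans hL)) (h.nc' hX nR) (dL.trans hL) hD.sol nD
    (inf_le_left.trans rD) (hD.cop_of_ne (hR.inf_left _) hsr.symm) ?_
  rw [eq_bot_of_le (inf_le_inf_right _ (h.le_syl hP nP (dL.trans hL) hD nD)) e]
  exact bot_le

theorem s2 (h : Hy q A K) (hX : PnElem q 1 X A) (hY : PnElem q 1 Y A) (hne : X ≠ Y) (hQ : Q ≤ K) (nil : Nil Q)
    (nQ : A ≤ N(Q)) (h0 : ∀ U, PnElem q 1 U A → U ≠ X → U ≠ Y → Q ⊓ C(U) = ⊥) : Ab Q := by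
  have a1 : ⁅Q, X⁆ ≤ C(Y) := h.g0 hX hQ nil nQ fun U hU hu => by
    by_cases e : U = Y
    · exact e ▸ inf_le_right
    · rw [h0 U hU hu e]; exact bot_le
  have a2 : ⁅Q, Y⁆ ≤ C(X) := h.g0 hY hQ nil nQ fun U hU hu => by
    by_cases e : U = X
    · exact e ▸ inf_le_right
    · rw [h0 U hU e hu]; exact bot_le
  exact ab_iff_der.2 (eq_bot_of_le (le_inf (le_inf ((FT.der_le Q).trans hQ) ((h.der_le hY hQ nQ).trans a2))
    ((h.der_le hX hQ nQ).trans a1)) (h.two hX hY hne))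

end Hy

theorem jn_perm {P₁ P₂ W₁ W₂ : Subgroup G} (h₁ : MulEq R P₁ W₁) (h₂ : MulEq R P₂ W₂) (l₁ : P₁ ≤ P) (l₂ : P₂ ≤ P)
    (hR : PiGrp π R) (hP : PiGrp π P) : PiGrp π (W₁ ⊔ W₂) := by
  set S := MulAction.stabilizer G ((R : Set G) * (P : Set G))
  have k : ∀ {P' W : Subgroup G}, MulEq R P' W → P' ≤ P → W ≤ S := fun {P' W} h l w hw => by
    refine MulAction.mem_stabilizer_iff.2 (Set.eq_of_subset_of_ncard_le ?_ (Set.ncard_smul_set _ _).ge)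
    rintro _ ⟨_, ⟨a, ha, b, hb, rfl⟩, rfl⟩
    obtain ⟨a', ha', b', hb', e⟩ := h.mul (w * a) (mul_mem hw (h.left ha))
    exact ⟨a', ha', b' * b, mul_mem (l hb') hb, by simp only [smul_eq_mul]; rw [← mul_assoc, ← e, mul_assoc]⟩
  have rS : R ≤ S := h₁.left.trans (k h₁ l₁)
  refine PiGrp.mono (MulEq.piGrp (A := R) (B := S ⊓ P) (M := S) ⟨rS, inf_le_left, fun x hx => ?_⟩ hR
    (hP.inf_right _)) (sup_le (k h₁ l₁) (k h₂ l₂))
  have : x ∈ (R : Set G) * (P : Set G) := by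
    rw [← MulAction.mem_stabilizer_iff.1 hx]
    exact ⟨1, ⟨1, one_mem R, 1, one_mem P, mul_one 1⟩, mul_one x⟩
  obtain ⟨a, ha, b, hb, e⟩ := this
  refine ⟨a, ha, b, ⟨?_, hb⟩, e.symm⟩
  have : b = a⁻¹ * x := by rw [← e]; simp
  exact this ▸ S.mul_mem (S.inv_mem (rS ha)) hx

/-- invariant `π`-subgroups -/
structure Iv (π : Set ℕ) (A K W : Subgroup G) : Prop where
  le : W ≤ K
  nrm : A ≤ N(W)
  pi : PiGrp π W

def Mx (π : Set ℕ) (A K L : Subgroup G) : Prop := Iv π A K L ∧ ∀ W, Iv π A K W → L ≤ W → W = L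

theorem Iv.exMx (h : Iv π A K W) : ∃ L, W ≤ L ∧ Mx π A K L := exists_max _ h

structure Sy (q : ℕ) (A K : Subgroup G) (p r : ℕ) (π : Set ℕ) (P R : Subgroup G) : Prop extends Hy q A K where
  min : ∀ U, U ≤ K → A ≤ N(U) → U ≠ ⊥ → Sol U → Sol (K ⊓ N(U))
  sol : ∀ W, Iv π A K W → Sol W
  pp : p.Prime
  pr : r.Prime
  ne : p ≠ r
  hπ : π = {p, r}
  sP : Syl p P K
  nP : A ≤ N(P)
  sR : Syl r R K
  nR : A ≤ N(R)
  P1 : P ≠ ⊥
  R1 : R ≠ ⊥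

namespace Sy

theorem symm (h : Sy q A K p r π P R) : Sy q A K r p π R P :=
  { h with pp := h.pr, pr := h.pp, ne := h.ne.symm, hπ := h.hπ.trans (Set.pair_comm _ _), sP := h.sR, nP := h.nR,
           sR := h.sP, nR := h.nP, P1 := h.R1, R1 := h.P1 }

theorem mp (h : Sy q A K p r π P R) : p ∈ π := h.hπ ▸ .inl rfl

theorem ivp (h : Sy q A K p r π P R) (hD : D ≤ K) (nD : A ≤ N(D)) (pD : PGrp p D) : Iv π A K D :=
  ⟨hD, nD, pD.pi h.mp⟩

theorem ivP (h : Sy q A K p r π P R) (hD : D ≤ P) (nD : A ≤ N(D)) : Iv π A K D :=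
  h.ivp (hD.trans h.sP.le) nD (h.sP.pi.mono hD)

theorem leP (h : Sy q A K p r π P R) (hD : D ≤ K) (nD : A ≤ N(D)) (pD : PGrp p D) : D ≤ P :=
  h.le_syl h.sP h.nP hD pD nD

theorem pc (h : Sy q A K p r π P R) (hW : PiGrp π W) : O[{p}ᶜ](W) = O[{r}](W) :=
  pcore_congr fun s hs hd => by
    have := hW s hs hd
    rw [h.hπ] at this
    rcases this with rfl | rfl
    · simpa using h.ne
    · simpa using h.ne.symm

theorem jn (h : Sy q A K p r π P R) (hU : U ≤ K) (nU : A ≤ N(U)) (h1 : U ≠ ⊥) (sU : Sol U) (hV : Iv π A K V)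
    (hW : Iv π A K W) (vU : V ≤ N(U)) (wU : W ≤ N(U)) : Iv π A K (V ⊔ W) := by
  have nN := normsI h.nrm (norms_norm nU)
  have cN : Cop (K ⊓ N(U)) A := h.cop.mono_left inf_le_left
  have sN := h.min U hU nU h1 sU
  obtain ⟨H, hH, nH, l⟩ := coprime_Hall_subset nN cN sN (le_inf hV.le vU) hV.pi hV.nrm
  obtain ⟨c, hc, e⟩ := coprime_Hall_Jsub nN cN sN hH nH (le_inf hW.le wU) hW.pi hW.nrm
  have : c = 1 := mem_bot.1 (h.fpf ▸ ⟨hc.1.1, hc.2⟩)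
  rw [this, cj_one] at e
  exact ⟨sup_le hV.le hW.le, normsY hV.nrm hW.nrm, hH.pi.mono (sup_le l e)⟩

theorem jnR (h : Sy q A K p r π P R) (hV : Iv π A K V) (hW : Iv π A K W) (v : R ≤ V) (w : R ≤ W) :
    Iv π A K (V ⊔ W) := by
  have k : ∀ {V : Subgroup G}, Iv π A K V → R ≤ V → MulEq R (V ⊓ P) V := fun {V} hV v => by
    refine (h.sR.subl v hV.le).mulEq ((h.syl_inf h.sP h.nP hV.le hV.nrm).congr fun s hs hd => ?_)
    have := hV.pi s hs hd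
    rw [h.hπ] at this
    rcases this with rfl | rfl
    · simpa using h.ne
    · simpa using h.ne.symm
  exact ⟨sup_le hV.le hW.le, normsY hV.nrm hW.nrm, jn_perm (k hV v) (k hW w) inf_le_right inf_le_right
    (h.sR.pi.pi h.symm.mp) (h.sP.pi.pi h.mp)⟩

theorem mxle (h : Sy q A K p r π P R) (hL : Mx π A K L) (hU : U ⊴ L) (nU : A ≤ N(U)) (h1 : U ≠ ⊥)
    (hW : Iv π A K W) (wU : W ≤ N(U)) : W ≤ L := by
  have := hL.2 _ (h.jn (hU.le.trans hL.1.le) nU h1 ((h.sol L hL.1).mono hU.le) hL.1 hW hU.nrm wU) le_sup_left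
  exact this ▸ le_sup_right

theorem st (h : Sy q A K p r π P R) (hL : Mx π A K L) (hW : Iv π A K W) (h1 : O[{p}](L) ≠ ⊥)
    (a : O[{p}](L) ≤ W) (b : O[{r}](L) ≤ W) : O[{r}](L) ≤ O[{r}](W) := by
  have nO := norms_pcore {p} hL.1.nrm
  have l : W ⊓ N(O[{p}](L)) ≤ L := h.mxle hL (pcore_nml _ _) nO h1
    ⟨inf_le_left.trans hW.le, normsI hW.nrm (norms_norm nO), hW.pi.inf_left _⟩ inf_le_right
  rw [← h.pc hW.pi]
  refine le_trans (pcore_max ((pcore_pi _ _).p' h.ne.symm) ?_) (p'core_norm_pgroup (pcore_pi _ _) a (h.sol W hW))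
  exact (pcore_nml _ _).mono (le_inf b ((pcore_le _ _).trans (pcore_nrm _ _))) l

theorem cpr (h : Sy q A K p r π P R) (W : Subgroup G) : O[{p}](W) ≤ C(O[{r}](W)) :=
  (pcore_nml _ _).cents_of_cop (pcore_nml _ _) ((pcore_pi _ _).cop_of_ne (pcore_pi _ _) h.ne)

theorem bu (h : Sy q A K p r π P R) (hL : Mx π A K L) (hW : Iv π A K W) (h1 : O[{p}](L) ≠ ⊥)
    (h2 : O[{r}](L) ≠ ⊥) (a : O[{p}](L) ≤ W) (b : O[{r}](L) ≤ W) : W ≤ L := by
  obtain ⟨M, wM, hM⟩ := hW.exMx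
  have a1 := h.st hL hM.1 h1 (a.trans wM) (b.trans wM)
  have a2 := h.symm.st hL hM.1 h2 (b.trans wM) (a.trans wM)
  have a3 : O[{p}](M) ≤ L := h.mxle hL (pcore_nml _ _) (norms_pcore _ hL.1.nrm) h2
    (h.ivp ((pcore_le _ _).trans hM.1.le) (norms_pcore _ hM.1.nrm) (pcore_pi _ _))
    (cents_norm (centsS a1 (h.cpr M)))
  have a4 : O[{r}](M) ≤ L := h.mxle hL (pcore_nml _ _) (norms_pcore _ hL.1.nrm) h1
    (h.symm.ivp ((pcore_le _ _).trans hM.1.le) (norms_pcore _ hM.1.nrm) (pcore_pi _ _))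
    (cents_norm (centsS a2 (h.symm.cpr M)))
  have a5 := h.symm.st hM hL.1 (ne_bot_of_le a1 h2) a4 a3
  exact wM.trans (h.mxle hL (pcore_nml _ _) (norms_pcore _ hL.1.nrm) h1 hM.1 (le_antisymm a5 a2 ▸ pcore_nrm _ _))

theorem mm (h : Sy q A K p r π P R) (hL : Mx π A K L) (h1 : O[{p}](L) ≠ ⊥) (h2 : O[{r}](L) ≠ ⊥) : R ≤ L := by
  have rK := h.sR.le
  have nO := norms_pcore {r} hL.1.nrm
  have oR : O[{r}](L) ≤ R := h.symm.leP ((pcore_le _ _).trans hL.1.le) nO (pcore_pi _ _)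
  have iR := h.symm.ivP le_rfl h.nR
  obtain ⟨X, hX, hT⟩ := h.ex (U := Z(R)) (inf_le_left.trans rK) (norms_center h.nR) (h.sR.pi.center_ne_bot h.R1)
  set T := Z(R) ⊓ C(X)
  have nT : A ≤ N(T) := h.nc' hX (norms_center h.nR)
  have tR : T ≤ R := inf_le_left.trans inf_le_left
  have tc : T ≤ C(R) := inf_le_left.trans inf_le_right
  have tL : T ≤ L := h.mxle hL (pcore_nml _ _) nO h2 (h.symm.ivP tR nT) (cents_norm (centsS oR tc))
  set V := O[{p}](L)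
  have nV : A ≤ N(V) := norms_pcore _ hL.1.nrm
  have vK : V ≤ K := (pcore_le _ _).trans hL.1.le
  have pV : PGrp p V := pcore_pi _ _
  have tV : T ≤ N(V) := tL.trans (pcore_nrm _ _)
  have cV : Cop V T := pV.cop_of_ne (h.sR.pi.mono tR) h.ne
  have lW : ⁅V, T⁆ ≤ V := comm_le_left tV
  have a1 : ⁅R, X⁆ ≤ C(⁅V, T⁆) := h.g0 hX rK h.sR.pi.nil h.nR fun Y hY hne => centsC
    (h.k3 hX hY hne.symm (le_inf (tR.trans rK) inf_le_right) nT vK pV.sol nV tV cV (inf_le_inf_right _ rK)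
      (h.nc' hY h.nR) (cents_norm (centsS inf_le_left tc)))
  have lR : ⁅R, X⁆ ≤ R := comm_le_left (hX.le.trans h.nR)
  by_cases h0 : ⁅R, X⁆ = ⊥
  · have ab : Ab R := (h.ab X hX).mono (le_inf rK (comm_eq_bot.1 h0))
    exact h.mxle hL (pcore_nml _ _) nO h2 iR (ab.norms oR)
  have i1 := h.jn (lR.trans rK) (normsR h.nR (h.abA.norms hX.le)) h0 (h.sR.pi.sol.mono lR)
    (h.ivp (lW.trans vK) (normsR nV nT) (pV.mono lW)) iR (cents_norm (centsC a1)) (norm_comm_left _ _)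
  have i2 := h.jn (tR.trans rK) nT hT (h.sR.pi.sol.mono tR)
    (h.ivp (D := V ⊓ C(T)) (inf_le_left.trans vK) (norms_subcent nV nT) (pV.inf_left _)) iR
    (cents_norm inf_le_right) (cents_norm (centsC tc))
  have i3 := h.jnR i1 i2 le_sup_right le_sup_right
  have e := (coprime_cent_prod tV cV pV.sol).sup
  refine le_trans (le_sup_right.trans le_sup_left) (h.bu hL i3 h1 h2 ?_ (oR.trans (le_sup_right.trans le_sup_left)))
  exact e.ge.trans (sup_le_sup le_sup_left le_sup_left)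

theorem typ (h : Sy q A K p r π P R) (hL : Mx π A K L) (h0 : O[{r}](L) = ⊥) :
    P ≤ L ∧ L ≤ N(P) ∧ L ⊓ C(P) ≤ P := by
  have sL := h.sol L hL.1
  have h0' : O[{p}ᶜ](L) = ⊥ := (h.pc hL.1.pi).trans h0
  have n := (h.npc3 h.pp h.pr h.ne hL.1.le sL hL.1.nrm (h.hπ ▸ hL.1.pi) h0').hall
  rw [h.symm.pc hL.1.pi] at n
  have nO := norms_pcore {p} hL.1.nrm
  have oP : O[{p}](L) ≤ P := h.leP ((pcore_le _ _).trans hL.1.le) nO (pcore_pi _ _)
  have L1 : L ≠ ⊥ := fun e => h.P1 ((hL.2 P (h.ivP le_rfl h.nP) (e ▸ bot_le)).trans e)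
  have O1 : O[{p}](L) ≠ ⊥ := sL.pcore_ne_bot L1 h0'
  have l : P ⊓ N(O[{p}](L)) ≤ L := h.mxle hL (pcore_nml _ _) nO O1
    (h.ivP inf_le_left (normsI h.nP (norms_norm nO))) inf_le_right
  have e : O[{p}](L) = P := h.sP.pi.nil.eq_of_subnorm_le oP
    (n.le_of_nml (pcore_nrm _ _) ((h.sP.pi.inf_left _).p' h.ne) l)
  exact e ▸ ⟨pcore_le _ _, pcore_nrm _ _, cent_sub_pcore sL h0'⟩

theorem dich (h : Sy q A K p r π P R) (hn : ∀ W, Iv π A K W → P ≤ W → ¬ R ≤ W) (hW : Iv π A K W) :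
    ∃ L, W ≤ L ∧ Iv π A K L ∧ ((P ≤ L ∧ L ≤ N(P) ∧ L ⊓ C(P) ≤ P) ∨ (R ≤ L ∧ L ≤ N(R) ∧ L ⊓ C(R) ≤ R)) := by
  obtain ⟨L, wL, hL⟩ := hW.exMx
  refine ⟨L, wL, hL.1, ?_⟩
  by_cases h2 : O[{r}](L) = ⊥
  · exact .inl (h.typ hL h2)
  by_cases h1 : O[{p}](L) = ⊥
  · exact .inr (h.symm.typ hL h1)
  exact absurd (h.mm hL h1 h2) (hn L hL.1 (h.symm.mm hL h2 h1))

theorem c1 (h : Sy q A K p r π P R) (hn : ∀ W, Iv π A K W → P ≤ W → ¬ R ≤ W) (hX : PnElem q 1 X A)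
    (h1 : Z(P) ⊓ C(X) ≠ ⊥) : R ⊓ C(X) ≤ N(P) := by
  have zK : Z(P) ⊓ C(X) ≤ K ⊓ C(X) := inf_le_inf_right _ (inf_le_left.trans h.sP.le)
  have i := h.jn (zK.trans inf_le_left) (h.nc' hX (norms_center h.nP)) h1
    (h.sP.pi.sol.mono (inf_le_left.trans inf_le_left)) (h.ivP le_rfl h.nP)
    (h.symm.ivP (D := R ⊓ C(X)) inf_le_left (h.nc' hX h.nR))
    (cents_norm (centsC (inf_le_left.trans inf_le_right))) (cents_norm (h.cents hX (inf_le_inf_right _ h.sR.le) zK))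
  obtain ⟨L, wL, hL, a | a⟩ := h.dich hn i
  · exact le_sup_right.trans (wL.trans a.2.1)
  · exact absurd a.1 (hn L hL (le_sup_left.trans wL))

theorem c2 (h : Sy q A K p r π P R) (hn : ∀ W, Iv π A K W → P ≤ W → ¬ R ≤ W) (hX : PnElem q 1 X A)
    (h1 : Z(R) ⊓ C(X) ≠ ⊥) (hY : PnElem q 1 Y A) (h2 : R ⊓ C(Y) ≠ ⊥) (h3 : R ⊓ C(Y) ≤ N(P)) : Y = X := by
  by_contra hne
  have a := h.symm.c1 (fun W hW a b => hn W hW b a) hX h1
  have cp : Cop P R := h.sP.pi.cop_of_ne h.sR.pi h.ne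
  have b : R ⊓ C(Y) ≤ C(P) := by
    refine h.k0 hY hX hne (inf_le_inf_right _ h.sR.le) (h.nc' hY h.nR) h.sP.le h.sP.pi.sol h.nP h3
      (cp.mono_right inf_le_left) (comm_eq_bot.1 (eq_bot_of_le (le_inf ?_ ?_) cp.inf))
    · exact (commSS inf_le_left le_rfl).trans (comm_le_left h3)
    · exact (commSS le_rfl inf_le_left).trans (comm_le_right a)
  have i : Iv π A K (P ⊔ R ⊓ C(Y)) := ⟨sup_le h.sP.le (inf_le_left.trans h.sR.le), normsY h.nP (h.nc' hY h.nR),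
    (h.sP.pi.pi h.mp).sup ((h.sR.pi.pi h.symm.mp).inf_left _) h3⟩
  obtain ⟨L, wL, hL, a | a⟩ := h.dich hn i
  · exact h2 (eq_bot_of_le (le_inf ((le_inf (le_sup_right.trans wL) b).trans a.2.2) inf_le_left) cp.inf)
  · exact absurd a.1 (hn L hL (le_sup_left.trans wL))

theorem c3 (h : Sy q A K p r π P R) (hn : ∀ W, Iv π A K W → P ≤ W → ¬ R ≤ W) (hX : PnElem q 1 X A)
    (h1 : Z(R) ⊓ C(X) ≠ ⊥) (hY : PnElem q 1 Y A) (h2 : R ⊓ C(Y) ≠ ⊥) (h3 : P ⊓ C(Y) ≠ ⊥) : Y = X := by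
  have c : R ⊓ C(Y) ≤ C(P ⊓ C(Y)) := h.cents hY (inf_le_inf_right _ h.sR.le) (inf_le_inf_right _ h.sP.le)
  have i : Iv π A K (P ⊓ C(Y) ⊔ R ⊓ C(Y)) := ⟨sup_le (inf_le_left.trans h.sP.le) (inf_le_left.trans h.sR.le),
    normsY (h.nc' hY h.nP) (h.nc' hY h.nR),
    ((h.sP.pi.pi h.mp).inf_left _).sup ((h.sR.pi.pi h.symm.mp).inf_left _) (cents_norm c)⟩
  obtain ⟨L, wL, hL, a | a⟩ := h.dich hn i
  · exact h.c2 hn hX h1 hY h2 (le_sup_right.trans (wL.trans a.2.1))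
  · obtain ⟨U, hU, h4⟩ := h.ex (U := Z(P)) (inf_le_left.trans h.sP.le) (norms_center h.nP)
      (h.sP.pi.center_ne_bot h.P1)
    have := h.symm.c2 (fun W hW a b => hn W hW b a) hU h4 hY h3 (le_sup_left.trans (wL.trans a.2.1))
    subst this
    exact h.c2 hn hX h1 hY h2 (h.c1 hn hY h4)

theorem s3 (h : Sy q A K p r π P R) (hK : ¬ NPC p K) (ho : p ≠ 2 ∨ Ab P) :
    ∃ X, PnElem q 1 X A ∧ ∀ Y, PnElem q 1 Y A → Y ≠ X → P ⊓ C(Y) ≠ ⊥ := by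
  rcases ho with ho | ho
  · obtain ⟨Z, hZ, z1, zn, hz⟩ := H23.npc_of_ZJ h.pp ho h.sP h.P1
    exact h.s1 h.pp h.sP h.nP inf_le_left (h.min Z (hZ.trans h.sP.le) (h.nP.trans zn) z1 (h.sP.pi.sol.mono hZ))
      (normsI h.nrm (norms_norm (h.nP.trans zn))) fun a => hK (hz a)
  · refine h.s1 h.pp h.sP h.nP inf_le_left (h.min P h.sP.le h.nP h.P1 h.sP.pi.sol)
      (normsI h.nrm (norms_norm h.nP)) fun a => hK (Burnside_normal_complement h.sP ?_)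
    rw [← (a.sd h.sP.subnorm).mulEq.sup]
    exact sup_le (a.cents h.sP.pi h.sP.subnorm.le (pcore_pi _ _) (pcore_le _ _)
      ((pcore_le _ _).trans inf_le_right)) ho.le_cen

theorem perm (h : Sy q A K p r π P R) (hp : ¬ NPC p K) (hr : ¬ NPC r K) (h2 : r ≠ 2) :
    ∃ W, Iv π A K W ∧ P ≤ W ∧ R ≤ W := by
  by_contra hc
  push Not at hc
  obtain ⟨X, hX, hx⟩ := h.symm.s3 hr (.inl h2)
  obtain ⟨U, hU, hu⟩ := h.ex (U := Z(R)) (inf_le_left.trans h.sR.le) (norms_center h.nR)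
    (h.sR.pi.center_ne_bot h.R1)
  have k : ∀ Y, PnElem q 1 Y A → Y ≠ X → Y ≠ U → P ⊓ C(Y) = ⊥ := fun Y hY a b => by
    by_contra h0
    exact b (h.c3 hc hU hu hY (hx Y hY a) h0)
  have ab : Ab P := by
    by_cases e : X = U
    · obtain ⟨Y, hY, a, -⟩ := four h.el h.q2 hX hX hX
      exact h.s2 hX hY a.symm h.sP.le h.sP.pi.nil h.nP fun V hV b _ => k V hV b (e ▸ b)
    · exact h.s2 hX hU e h.sP.le h.sP.pi.nil h.nP k
  obtain ⟨V, hV, hv⟩ := h.s3 hp (.inr ab)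
  obtain ⟨Y, hY, a, b, c⟩ := four h.el h.q2 hX hU hV
  exact hv Y hY c (k Y hY a b)

end Sy

theorem main (hq2 : q ≠ 2) (n : ℕ) : ∀ {G : Type u} [Group G] [Finite G] {A K : Subgroup G}, #K = n →
    PnElem q 2 A A → A ≤ N(K) → Cop K A → (∀ a ∈ A, a ≠ 1 → Ab (K ⊓ C[a])) → Sol K := by
  induction n using Nat.strong_induction_on with
  | _ n ih =>
  intro G _ _ A K e hA hn hc h
  by_cases h0 : ∃ N, N ⊴ K ∧ A ≤ N(N) ∧ N ≠ ⊥ ∧ Sol N
  · obtain ⟨N, hN, nN, h1, sN⟩ := h0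
    have cN : Cop N A := hc.mono_left hN.le
    refine sol_of_quo hN.nrm sN (ih _ (e ▸ card_quo_lt hN h1) rfl ((hA.quo nN cN.inf)) (quo_norms N hn)
      (hc.quo N) fun u hu u1 => ?_)
    obtain ⟨a, ha, an, rfl⟩ := mem_quo.1 hu
    rw [← coprime_quotient_cent1 hN.le an (cN.coprime_dvd_right (orderOf_dvd_card' ha))]
    exact (h a ha (by rintro rfl; exact u1 (coset_one N))).quo N
  push Not at h0
  have abA := hA.ab
  have hy : Hy q A K := by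
    refine ⟨hA, hq2, hn, hc, fun X hX => ?_, ?_⟩
    · obtain ⟨x, hx, x1⟩ := exists_ne_one hX.ne_bot
      exact (h x (hX.le hx) x1).mono (inf_le_inf_left _ (cen_le_cen1 hx))
    · by_contra h1
      have c : K ≤ C(K ⊓ C(A)) := coprime_abelian_gen_cent1 abA hA.not_cyc hn hc fun a ha a1 =>
        (h a ha a1).cents (inf_le_inf_left _ (cen_le_cen1 ha)) le_rfl
      exact h0 _ ⟨inf_le_left, cents_norm c⟩ (norms_subcent hn (le_nrm A)) h1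
        (ab_iff.2 (inf_le_left.trans c)).sol
  have sub : ∀ W, W < K → A ≤ N(W) → Sol W := fun W hW nW =>
    ih _ (e ▸ card_lt hW) rfl hA nW (hc.mono_left hW.le) fun a ha a1 =>
      (h a ha a1).mono (inf_le_inf_right _ hW.le)
  have mn : ∀ U, U ≤ K → A ≤ N(U) → U ≠ ⊥ → Sol U → Sol (K ⊓ N(U)) := fun U hU nU h1 sU =>
    sub _ (inf_lt_left.2 fun k => h0 U ⟨hU, k⟩ nU h1 sU) (normsI hn (norms_norm nU))
  by_contra hK
  have np : ∀ p, p.Prime → p ∣ #K → ¬ NPC p K := fun p hp hd a => by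
    obtain ⟨P, hP⟩ := exists_syl p K
    refine hK ((a.sd hP).sol (sub _ (lt_of_le_of_ne (pcore_le _ _) fun e => ?_) (norms_pcore _ hn)) hP.pi.sol)
    exact (p'grp_iff hp).1 (e ▸ pcore_pi _ _) hd
  choose S hS nS using fun p : Nat.Primes => coprime_Sylow_exists p hn hc (.inr abA.sol)
  choose T hT using fun p : Nat.Primes => (hS p).exists_sylow p.2
  have key : ∀ p r : Nat.Primes, ∃ W, MulEq (S p) (S r) W := fun p r => by
    by_cases e : p = r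
    · exact ⟨S p, e ▸ mulEq_of_sup (le_nrm _) (sup_idem _)⟩
    by_cases p1 : S p = ⊥
    · exact ⟨S r, p1 ▸ mulEq_of_sup (norms_bot _) (bot_sup_eq _)⟩
    by_cases r1 : S r = ⊥
    · exact ⟨S p, r1 ▸ mulEq_of_sup bot_le (sup_bot_eq _)⟩
    have ne : (p : ℕ) ≠ r := fun a => e (Subtype.ext a)
    have k : ∀ W, Iv {(p : ℕ), (r : ℕ)} A K W → S p ≤ W → S r ≤ W → ∃ W, MulEq (S p) (S r) W := fun W hW a b => by
      refine ⟨W, ((hS p).subl a hW.le).mulEq (((hS r).subl b hW.le).congr fun s hs hd => ?_)⟩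
      rcases hW.pi s hs hd with rfl | rfl
      · simpa using ne
      · simpa using ne.symm
    by_cases hπ : PiGrp {(p : ℕ), (r : ℕ)} K
    · exact k K ⟨le_rfl, hn, hπ⟩ (hS p).le (hS r).le
    have sy : Sy q A K p r {(p : ℕ), (r : ℕ)} (S p) (S r) :=
      { hy with
        min := mn
        sol := fun W hW => sub W (lt_of_le_of_ne hW.le fun e => hπ (e ▸ hW.pi)) hW.nrm
        pp := p.2, pr := r.2, ne := ne, hπ := rfl, sP := hS p, nP := nS p, sR := hS r, nR := nS r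
        P1 := p1, R1 := r1 }
    have a := np p p.2 ((hS p).pi.dvd_of_le p1 (hS p).le)
    have b := np r r.2 ((hS r).pi.dvd_of_le r1 (hS r).le)
    by_cases r2 : (r : ℕ) = 2
    · obtain ⟨W, hW, c, d⟩ := sy.symm.perm b a (r2 ▸ ne)
      exact k W hW d c
    · obtain ⟨W, hW, c, d⟩ := sy.perm a b r2
      exact k W hW c d
  have m : ∀ (p : Nat.Primes) (x : K), x ∈ T p ↔ (x : G) ∈ S p := fun p x => by
    rw [← hT p]
    exact ⟨fun a => ⟨x, a, rfl⟩, fun ⟨y, a, b⟩ => (Subtype.ext b : y = x) ▸ a⟩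
  have k2 : ∀ p r : Nat.Primes, (T p : Set K) * (T r : Set K) ⊆ (T r : Set K) * (T p : Set K) := by
    rintro p r _ ⟨x, hx, y, hy, rfl⟩
    obtain ⟨W, hW⟩ := key p r
    obtain ⟨a, ha, b, hb, e⟩ := hW.symm.mul (x * y) (mul_mem (hW.left ((m p x).1 hx)) (hW.right ((m r y).1 hy)))
    exact ⟨⟨a, (hS r).le ha⟩, (m r _).2 ha, ⟨b, (hS p).le hb⟩, (m p _).2 hb, Subtype.ext e.symm⟩
  exact hK (H7.isSolvable_of_sylow_system T fun p r => (k2 p r).antisymm (k2 r p))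

end Cfsg.Agent.H20.Mt
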